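import Mathlib
import Cfsg.Agent.Base
import Cfsg.Agent.Lib.Fischer.Heis

/-!
# Parallel lines in a class of 3-transpositions of orthogonal type
-/

set_option autoImplicit false

namespace H56

open Cfsg Subgroup

variable {G : Type*} [Group G] {D S : Set G}

theorem z3_cases (x : ZMod 3) : x = 0 ∨ x = 1 ∨ x = 2 := by revert x; decide

/-- a parametrised line -/
structure Ln (E : Set G) (L : ZMod 3 → G) : Prop where
  mem : ∀ i, L i ∈ E
  refl : ∀ i j, L i * L j * L i = L (-i - j)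
  nc : ∀ i j, i ≠ j → ¬ Commute (L i) (L j)

/-- translations along a line -/
def Tr (L : ZMod 3 → G) (t : ZMod 3) : G := L 0 * L t

/-- `g` shifts the line `L` by `t` -/
def Sh (g : G) (L : ZMod 3 → G) (t : ZMod 3) : Prop := ∀ j, g * L j * g⁻¹ = L (j + t)

theorem Sh.mul {g k : G} {L : ZMod 3 → G} {s t : ZMod 3} (h : Sh g L s) (h' : Sh k L t) : Sh (g * k) L (s + t) :=
  fun j => by rw [show g * k * L j * (g * k)⁻¹ = g * (k * L j * k⁻¹) * g⁻¹ by group, h', h, add_assoc, add_comm t]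

theorem Sh.inv {g : G} {L : ZMod 3 → G} {s : ZMod 3} (h : Sh g L s) : Sh g⁻¹ L (-s) := fun j => by
  have := h (j + -s)
  rw [neg_add_cancel_right] at this
  rw [← this]; group

theorem sh_one (L : ZMod 3 → G) : Sh 1 L 0 := fun j => by simp

theorem sh_of_commute {g : G} {L : ZMod 3 → G} (h : ∀ j, Commute (L j) g) : Sh g L 0 := fun j => by
  rw [add_zero, conj_eq_iff.2 (h j)]

theorem Plane.ln {P : ZMod 3 × ZMod 3 → G} (h : Plane D P) (u v : ZMod 3 × ZMod 3) (hv : v ≠ 0) :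
    Ln D fun i => P (u + i • v) :=
  ⟨fun _ => h.mem _, fun i j => by rw [h.refl]; congr 1; revert u v i j; decide +kernel,
    fun i j n => h.nc _ _ (by revert u v i j; decide +kernel)⟩

theorem Plane.row {P : ZMod 3 × ZMod 3 → G} (h : Plane D P) (t : ZMod 3) : Ln D fun i => P (i, t) :=
  ⟨fun _ => h.mem _, fun i j => by rw [h.refl]; congr 1; revert t i j; decide,
    fun i j n => h.nc _ _ (by simpa using n)⟩

namespace Ln

variable {L : ZMod 3 → G} (h : Ln D L)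
include h

theorem inj : Function.Injective L := fun u v e => by_contra fun n => h.nc u v n (e ▸ Commute.refl _)

theorem sq (i : ZMod 3) : L i * L i = 1 := by
  have := h.refl i i
  rwa [show -i - i = i by clear * -; revert i; decide, mul_eq_right] at this

theorem inv (i : ZMod 3) : (L i)⁻¹ = L i := inv_eq_of_mul_eq_one_right (h.sq i)

theorem notMem (i j : ZMod 3) : L j ∉ Dc D (L i) := fun c => h.nc i j (fun e => c.2.1 (by rw [e])) c.2.2

theorem mul_eq (i t : ZMod 3) : L i * L (i + t) = Tr L t := by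
  have k : ∀ a b, L a * L b = L (-a - b) * L a := fun a b => by rw [← h.refl, mul_assoc, h.sq, mul_one]
  have k1 : ∀ t, L 1 * L (1 + t) = L 0 * L t ∧ L 2 * L (2 + t) = L 0 * L t := fun t => by
    rcases z3_cases t with rfl | rfl | rfl
    · simp [h.sq]
    · exact ⟨(k 1 2).trans rfl, ((k 0 1).trans rfl).symm⟩
    · exact ⟨((k 0 2).trans rfl).symm, (k 2 1).trans rfl⟩
  rcases z3_cases i with rfl | rfl | rfl
  exacts [by rw [zero_add]; rfl, (k1 t).1, (k1 t).2]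

theorem sh (t : ZMod 3) : Sh (Tr L t) L t := fun j => by
  rw [Tr, mul_inv_rev, h.inv, h.inv, show L 0 * L t * L j * (L t * L 0) = L 0 * (L t * L j * L t) * L 0 by group,
    h.refl, h.refl]
  congr 1; ring

theorem tr_zero : Tr L 0 = 1 := h.sq 0

theorem tr_add (s t : ZMod 3) : Tr L s * Tr L t = Tr L (s + t) := by
  rw [← h.mul_eq s t, Tr, Tr, mul_assoc, ← mul_assoc (L s), h.sq, one_mul]

theorem tr_inv (t : ZMod 3) : (Tr L t)⁻¹ = Tr L (-t) := by
  rw [inv_eq_iff_mul_eq_one, h.tr_add, add_neg_cancel, h.tr_zero]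

theorem commute {g : G} {s : ZMod 3} (hg : Sh g L s) (t : ZMod 3) : Commute (Tr L t) g := by
  rw [← conj_eq_iff, Tr, show g * (L 0 * L t) * g⁻¹ = (g * L 0 * g⁻¹) * (g * L t * g⁻¹) by group, hg, hg, zero_add,
    add_comm, h.mul_eq]; rfl

theorem comp (a : ZMod 3) {e : ZMod 3} (he : e ≠ 0) : Ln D fun i => L (a + e * i) :=
  ⟨fun _ => h.mem _, fun i j => by rw [h.refl]; congr 1; revert a e i j; decide,
    fun i j n => h.nc _ _ (by revert a e i j; decide)⟩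

theorem ext {L' : ZMod 3 → G} (h' : Ln D L') (h0 : L' 0 = L 0) (h1 : L' 1 = L 1) : L' = L := by
  funext i
  rcases z3_cases i with rfl | rfl | rfl
  exacts [h0, h1, by rw [show (2 : ZMod 3) = -0 - 1 from rfl, ← h.refl, ← h'.refl, h0, h1]]

theorem exists_plane (hq : Q3 D) {r : G} (hr : r ∈ D) (c : ∀ i, ¬ Commute (L i) r) :
    ∃ P, Plane D P ∧ (fun i => P (i, 0)) = L ∧ P (0, 1) = r := by
  obtain ⟨P, hP, p0, p1, p2⟩ := hq.exists_plane (h.mem 0) (h.mem 1) hr ⟨h.nc _ _ (by decide), c 0, c 1, by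
    rw [← hq.s_commute (h.mem 1), h.refl]; exact c _⟩
  exact ⟨P, hP, h.ext (hP.row 0) p0 p1, p2⟩

end Ln

theorem Q3.exists_ln (h : Q3 D) {a b : G} (ha : a ∈ D) (hb : b ∈ D) (c : ¬ Commute a b) :
    ∃ L, Ln D L ∧ L 0 = a ∧ L 1 = b := by
  have e := h.br a ha b hb c
  have c1 : ¬ Commute a (a * b * a) := by
    rw [← h.s_commute ha, h.sq a ha, one_mul]; exact c
  have c2 : ¬ Commute b (a * b * a) := by
    rw [e, ← h.s_commute hb, h.sq b hb, one_mul]; exact fun k => c k.symm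
  refine ⟨fun i => if i = 0 then a else if i = 1 then b else a * b * a, ⟨fun i => ?_, fun i j => ?_, fun i j n => ?_⟩,
    rfl, rfl⟩
  · split_ifs
    exacts [ha, hb, h.cl a ha b hb]
  · have e1 : ∀ x, a * (b * (a * x)) = b * (a * (b * x)) := fun x => by simp only [← mul_assoc, e]
    have e2 : a * (b * a) = b * (a * b) := by simp only [← mul_assoc, e]
    rcases z3_cases i with rfl | rfl | rfl <;> rcases z3_cases j with rfl | rfl | rfl <;>
      simp +decide [mul_assoc, h.mul_mul ha, h.mul_mul hb, h.sq a ha, h.sq b hb, e1, e2]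
  · rcases z3_cases i with rfl | rfl | rfl <;> rcases z3_cases j with rfl | rfl | rfl <;>
      simp +decide [c, c1, c2, Commute.symm_iff (b := a), Commute.symm_iff (b := b)] at n ⊢

/-- `L i` is the only point of the line commuting with `p` and different from it -/
def Bat (D : Set G) (L : ZMod 3 → G) (p : G) (i : ZMod 3) : Prop := ∀ j, L j ∈ Dc D p ↔ j = i

/-- the points perpendicular to exactly one point of `L` -/
def BB (D : Set G) (L : ZMod 3 → G) : Set G := {p | p ∈ D ∧ ∃ i, Bat D L p i}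

/-- the lines with `BB D L = S` -/
structure Par (D S : Set G) (L : ZMod 3 → G) : Prop extends Ln D L where
  eq : BB D L = S

/-- the perp of `p` in the plane `P` is given by an affine equation -/
def Fn (D : Set G) (P : ZMod 3 × ZMod 3 → G) (p : G) (a b c : ZMod 3) : Prop :=
  ∀ u, P u ∈ Dc D p ↔ a * u.1 + b * u.2 = c

/-- no point is perpendicular to exactly one point of an affine plane -/
def NoX (D : Set G) : Prop := ∀ P, Plane D P → ∀ p ∈ D, ∃ a b c, Fn D P p a b c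

theorem Ln.tri {L : ZMod 3 → G} (h : Ln D L) (hq : Q3 D) (p : G) :
    (∀ j, L j ∈ Dc D p) ∨ (∀ j, L j ∉ Dc D p) ∨ ∃ i, Bat D L p i := by
  have k : ∀ i j, L i ∈ Dc D p → L j ∈ Dc D p → L (-i - j) ∈ Dc D p := fun i j h1 h2 =>
    h.refl i j ▸ (hq.dc p).cl _ h1 _ h2
  by_cases c : ∃ i, L i ∈ Dc D p
  · obtain ⟨i, hi⟩ := c
    by_cases c' : ∃ j, j ≠ i ∧ L j ∈ Dc D p
    · obtain ⟨j, n, hj⟩ := c'
      refine Or.inl fun t => ?_
      have : t = i ∨ t = j ∨ t = -i - j := by clear * - n; revert i j t; decide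
      rcases this with rfl | rfl | rfl
      exacts [hi, hj, k _ _ hi hj]
    · exact Or.inr (Or.inr ⟨i, fun j => ⟨fun hj => by_contra fun n => c' ⟨j, n, hj⟩, fun e => e ▸ hi⟩⟩)
  · exact Or.inr (Or.inl fun j hj => c ⟨j, hj⟩)

theorem Bat.uniq {L : ZMod 3 → G} {p : G} {i j : ZMod 3} (h : Bat D L p i) (h' : Bat D L p j) : i = j :=
  (h' i).1 ((h i).2 rfl)

theorem Bat.mem {L : ZMod 3 → G} {p : G} {i : ZMod 3} (h : Bat D L p i) : L i ∈ Dc D p := (h i).2 rfl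

theorem Bat.nc {L : ZMod 3 → G} (hL : Ln D L) {p : G} {i j : ZMod 3} (h : Bat D L p i) (n : j ≠ i) :
    ¬ Commute p (L j) := fun c => n ((h j).1 ⟨hL.mem j, fun e => hL.notMem j i (e ▸ h.mem), c⟩)

theorem T3.conj_mem_Dc_iff (h : T3 D) (g : G) {d y : G} : g * y * g⁻¹ ∈ Dc D (g * d * g⁻¹) ↔ y ∈ Dc D d :=
  ⟨fun c => by simpa [mul_assoc] using h.conj_mem_Dc g⁻¹ c, h.conj_mem_Dc g⟩

theorem Bat.sh (hT : T3 D) {L : ZMod 3 → G} {p g : G} {i t : ZMod 3} (h : Bat D L p i) (hg : Sh g L t) :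
    Bat D L (g * p * g⁻¹) (i + t) := fun j => by
  rw [← sub_add_cancel j t, ← hg, hT.conj_mem_Dc_iff, h, add_left_inj]

theorem bb_comp {L : ZMod 3 → G} (a : ZMod 3) {e : ZMod 3} (he : e ≠ 0) : BB D (fun i => L (a + e * i)) = BB D L := by
  ext p
  refine and_congr_right fun _ => ⟨fun ⟨i, hi⟩ => ⟨a + e * i, fun j => ?_⟩, fun ⟨i, hi⟩ => ⟨e * (i - a), fun j => ?_⟩⟩
  · have := hi (e * (j - a))
    simp only at this
    rw [show a + e * (e * (j - a)) = j by clear * - he; revert a e j; decide] at this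
    rw [this]; clear * - he; revert a e i j; decide
  · rw [hi]; clear * - he; revert a e i j; decide

theorem Par.comp {L : ZMod 3 → G} (h : Par D S L) (a : ZMod 3) {e : ZMod 3} (he : e ≠ 0) :
    Par D S fun i => L (a + e * i) := ⟨h.toLn.comp a he, (bb_comp a he).trans h.eq⟩

theorem Par.bat {L : ZMod 3 → G} (h : Par D S L) {p : G} (hp : p ∈ S) : ∃ i, Bat D L p i := (h.eq ▸ hp : p ∈ BB D L).2

theorem Par.sub {L : ZMod 3 → G} (h : Par D S L) {p : G} (hp : p ∈ S) : p ∈ D := (h.eq ▸ hp : p ∈ BB D L).1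

theorem Par.of_bat {L : ZMod 3 → G} (h : Par D S L) {p : G} (hp : p ∈ D) {i : ZMod 3} (hi : Bat D L p i) : p ∈ S :=
  h.eq ▸ ⟨hp, i, hi⟩

theorem Par.notMem' {L : ZMod 3 → G} (h : Par D S L) (i : ZMod 3) : L i ∉ S := fun c => by
  obtain ⟨j, hj⟩ := h.bat c
  exact h.notMem i j hj.mem

theorem Par.all {L : ZMod 3 → G} (h : Par D S L) (hq : Q3 D) {p : G} (hp : p ∈ D) (n : p ∉ S) {i : ZMod 3}
    (hi : L i ∈ Dc D p) (j : ZMod 3) : L j ∈ Dc D p := by
  rcases h.tri hq p with c | c | ⟨k, c⟩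
  exacts [c j, absurd hi (c i), absurd (h.of_bat hp c) n]

theorem Par.mem_norm (hT : T3 D) {L : ZMod 3 → G} (h : Par D S L) {g : G} (a : ZMod 3) {e : ZMod 3} (he : e ≠ 0)
    (hg : ∀ j, g * L j * g⁻¹ = L (a + e * j)) : g ∈ normalizer S := by
  rw [mem_set_normalizer_iff]
  intro p
  rw [← h.eq]
  conv_rhs => rw [← bb_comp a he]
  simp only [BB, Bat, Set.mem_ofPred_eq, ← hg, hT.conj_mem_Dc_iff]
  exact and_congr_left fun _ => ⟨hT.conj g p, fun c => by simpa [mul_assoc] using hT.conj g⁻¹ _ c⟩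

theorem Fn.row {P : ZMod 3 × ZMod 3 → G} {p : G} {a b c : ZMod 3} (h : Fn D P p a b c) (t : ZMod 3) :
    (∃ i, Bat D (fun i => P (i, t)) p i) ↔ a ≠ 0 := by
  simp only [Bat, h _]; clear h; revert a b c t; decide

theorem Fn.col {P : ZMod 3 × ZMod 3 → G} {p : G} {a b c : ZMod 3} (h : Fn D P p a b c) (t : ZMod 3) :
    (∃ i, Bat D (fun i => P (t, i)) p i) ↔ b ≠ 0 := by
  simp only [Bat, h _]; clear h; revert a b c t; decide

theorem Par.row (hX : NoX D) {P : ZMod 3 × ZMod 3 → G} (hP : Plane D P) {s : ZMod 3} (h : Par D S fun i => P (i, s))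
    (t : ZMod 3) : Par D S fun i => P (i, t) := by
  refine ⟨hP.row t, Eq.trans ?_ h.eq⟩
  ext p
  refine and_congr_right fun hp => ?_
  obtain ⟨a, b, c, k⟩ := hX P hP p hp
  rw [k.row, k.row]

namespace FP

set_option linter.unusedSectionVars false

variable [Finite G] (h : FP D) (hX : NoX D)
include h hX

theorem par_uniq {L L' : ZMod 3 → G} (hL : Par D S L) (hL' : Par D S L') (e : L' 0 = L 0) :
    ∃ t, t ≠ 0 ∧ L' = fun i => L (0 + t * i) := by
  by_cases c : ∃ t, L' 1 = L t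
  · obtain ⟨t, ht⟩ := c
    have n : t ≠ 0 := by rintro rfl; exact absurd (hL'.inj (ht.trans e.symm)) (by decide)
    exact ⟨t, n, (hL.toLn.comp 0 n).ext hL'.toLn (by simpa using e) (by simpa using ht)⟩
  exfalso
  obtain ⟨P, hP, rfl, p1⟩ := hL.exists_plane h.q3 (hL'.mem 1) fun i k => hL'.notMem 1 0 (e ▸ hL.all h.q3 (hL'.mem 1)
    (hL'.notMem' 1) (i := i) ⟨hL.mem i, fun e => c ⟨i, e.symm⟩, k.symm⟩ 0)
  obtain rfl : L' = fun i => P (0, i) := by
    refine Ln.ext (L := fun i => P (0, i)) ?_ hL'.toLn e p1.symm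
    simpa using hP.ln 0 (0, 1) (by decide)
  have k0 : ∀ p ∈ D, ∀ a b c, Fn D P p a b c → (a ≠ 0 ↔ b ≠ 0) := fun p hp a b c k => by
    rw [← k.row 0, ← k.col 0]
    exact ⟨fun ⟨i, hi⟩ => hL'.bat (hL.of_bat hp hi), fun ⟨i, hi⟩ => hL.bat (hL'.of_bat hp hi)⟩
  have k1 : ∀ p ∈ D, ∀ p' ∈ D, ∀ a c a' c', a ≠ 0 → a' ≠ 0 → Fn D P p a (-a) c → Fn D P p' a' a' c' → Commute p p' := by
    intro p hp p' hp' a c a' c' n n' f f'
    by_contra c0
    obtain ⟨M, hM, rfl, rfl⟩ := h.q3.exists_ln hp hp' c0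
    obtain ⟨a2, b2, c2, f2⟩ := hX P hP _ (hM.mem 2)
    have k2 := k0 _ (hM.mem 2) _ _ _ f2
    have k3 : ∀ u i j, P u ∈ Dc D (M i) → P u ∈ Dc D (M j) → P u ∈ Dc D (M (-i - j)) := fun u i j h1 h2 =>
      Dc_symm (hP.mem _) (hM.refl i j ▸ (h.q3.dc _).cl _ (Dc_symm (hM.mem _) h1) _ (Dc_symm (hM.mem _) h2))
    have k4 : ∀ u : ZMod 3 × ZMod 3, (a * u.1 + -a * u.2 = c → a' * u.1 + a' * u.2 = c' → a2 * u.1 + b2 * u.2 = c2) ∧
        (a * u.1 + -a * u.2 = c → a2 * u.1 + b2 * u.2 = c2 → a' * u.1 + a' * u.2 = c') ∧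
        (a' * u.1 + a' * u.2 = c' → a2 * u.1 + b2 * u.2 = c2 → a * u.1 + -a * u.2 = c) := fun u => by
      rw [← f, ← f', ← f2]; exact ⟨k3 u 0 1, k3 u 0 2, k3 u 1 2⟩
    clear * - k4 k2 n n'
    revert a c a' c' a2 b2 c2; decide +kernel
  have k5 : ∀ v : ZMod 3 × ZMod 3, v ≠ 0 → ∃ p ∈ D, ∃ a b c, Fn D P p a b c ∧ a * v.1 + b * v.2 ≠ 0 := fun v hv => by
    obtain ⟨p, hp, c⟩ := h.exists_Dc_not_commute (hP.mem 0) (hP.mem v) (hP.nc _ _ hv.symm)
    obtain ⟨a, b, c0, f⟩ := hX P hP p hp.1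
    refine ⟨p, hp.1, a, b, c0, f, fun e => c ((f v).2 ?_).2.2.symm⟩
    simpa [e] using (f 0).1 (Dc_symm (hP.mem 0) hp)
  obtain ⟨p, hp, a, b, c, f, n⟩ := k5 (1, 2) (by decide)
  obtain ⟨p', hp', a', b', c', f', n'⟩ := k5 (1, 1) (by decide)
  obtain ⟨n1, rfl⟩ : a ≠ 0 ∧ b = -a := by have := k0 p hp a b c f; clear * - this n; revert a b; decide
  obtain ⟨n2, rfl⟩ : a' ≠ 0 ∧ b' = a' := by have := k0 p' hp' a' b' c' f'; clear * - this n'; revert a' b'; decide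
  obtain ⟨u, u1, u2⟩ : ∃ u : ZMod 3 × ZMod 3, a * u.1 + -a * u.2 ≠ c ∧ b' * u.1 + b' * u.2 ≠ c' := by
    clear * - n1 n2; revert a b' c c'; decide
  have nc : ∀ {q a b c}, Fn D P q a b c → a ≠ 0 → a * u.1 + b * u.2 ≠ c → ¬ Commute q (P u) := by
    intro q a b c f n1 n2 c0
    refine n2 ((f u).1 ⟨hP.mem u, fun e => ?_, c0⟩)
    have := (f (a * c, 0)).2 (by clear * - n1; revert a b c; decide)
    exact hP.nc _ _ (fun e' => this.2.1 (by rw [← e, e'])) (e ▸ this.2.2)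
  have f2 : Fn D P (P u * p * (P u)⁻¹) (-a) (- -a) (c + (a * u.1 + -a * u.2)) := fun v => by
    rw [show P v = P u * P (-u - v) * (P u)⁻¹ by rw [h.inv_eq (hP.mem u), hP.refl]; congr 1; ring, h.conj_mem_Dc_iff, f]
    simp only [Prod.fst_sub, Prod.snd_sub, Prod.fst_neg, Prod.snd_neg]
    constructor <;> intro e <;> linear_combination e
  have c1 := k1 p hp p' hp' _ _ _ _ n1 n2 f f'
  have c2 := k1 _ (h.conj _ _ hp) p' hp' _ _ _ _ (neg_ne_zero.2 n1) n2 f2 f'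
  rw [h.inv_eq (hP.mem u), ← h.braid hp (hP.mem u) (nc f n1 u1), h.q3.commute_s_of_commute hp c1] at c2
  exact nc f' n2 u2 c2.symm

theorem exists_par {L : ZMod 3 → G} (hL : Par D S L) {r : G} (hr : r ∈ D) (n : r ∉ S) {i : ZMod 3}
    (c : ¬ Commute r (L i)) : ∃ L', Par D S L' ∧ L' 0 = r ∧ Sh (Tr L' 1) L 1 := by
  by_cases e : ∃ k, r = L k
  · obtain ⟨k, rfl⟩ := e
    refine ⟨_, hL.comp k one_ne_zero, by simp, ?_⟩
    simpa [Tr, hL.mul_eq] using hL.sh 1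
  obtain ⟨P, hP, rfl, rfl⟩ := hL.exists_plane h.q3 hr fun j k => c (hL.all h.q3 hr n (i := j)
    ⟨hL.mem j, fun e' => e ⟨j, e'.symm⟩, k.symm⟩ i).2.2
  refine ⟨_, hL.row hX hP 1, rfl, fun j => ?_⟩
  rw [Tr, mul_inv_rev, h.inv_eq (hP.mem _), h.inv_eq (hP.mem _), ← mul_assoc, mul_assoc (P _), mul_assoc (P _), hP.refl,
    hP.refl]
  congr 1; revert j; decide

theorem par_par {L L' : ZMod 3 → G} (hL : Par D S L) (hL' : Par D S L') :
    (∀ i j, L j ∈ Dc D (L' i)) ∨ ((∀ i j, L j ∉ Dc D (L' i)) ∧ ∃ t, t ≠ 0 ∧ Sh (Tr L' 1) L t) := by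
  have k : ∀ {i j}, L j ∈ Dc D (L' i) → ∀ i j, L j ∈ Dc D (L' i) := fun {i j} c i' j' =>
    Dc_symm (hL.mem _) (hL'.all h.q3 (hL.mem _) (hL.notMem' _) (Dc_symm (hL'.mem _)
      (hL.all h.q3 (hL'.mem _) (hL'.notMem' _) c j')) i')
  refine or_iff_not_imp_left.2 fun c => ⟨fun i j c' => c (k c'), ?_⟩
  obtain ⟨i, hi⟩ : ∃ i, ¬ Commute (L' 0) (L i) := by
    by_cases e : L 0 = L' 0
    · exact ⟨1, e ▸ hL.nc _ _ (by decide)⟩
    · exact ⟨0, fun c' => c (k ⟨hL.mem 0, e, c'⟩)⟩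
  obtain ⟨M, hM, e, s⟩ := h.exists_par hX hL (hL'.mem 0) (hL'.notMem' 0) hi
  obtain ⟨t, n, rfl⟩ := h.par_uniq hX hM hL' e.symm
  refine ⟨t, n, ?_⟩
  rcases z3_cases t with rfl | rfl | rfl
  · exact absurd rfl n
  · simpa [Tr] using s
  · have := s.mul s
    rw [hM.tr_add] at this
    simpa [Tr, one_add_one_eq_two] using this

end FP

end H56
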