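import Mathlib
import Cfsg.Agent.Base
import Cfsg.Agent.Lib.Fischer.Par
import Cfsg.Agent.Lib.Fischer.Small

/-!
# The group generated by the translations along a parallel class, and its quadratic form
-/

set_option autoImplicit false

namespace H56

open Cfsg Subgroup

variable {G : Type*} [Group G] {D S : Set G}

/-- the group generated by the translations -/
def EE (D S : Set G) : Subgroup G := closure {g | ∃ L, Par D S L ∧ g = Tr L 1}

open Classical in
/-- the normalised inner product on `S` -/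
noncomputable def NN (D S : Set G) (p q : G) : ZMod 3 := if q ∈ Dc D p then 0 else if p * q * p ∈ S then -1 else 1

/-- the quadratic form -/
noncomputable def qE (D S : Set G) (f g : G) : ZMod 3 := -1 - NN D S f (g * f * g⁻¹)

/-- its polar form -/
noncomputable def bf (D S : Set G) (f g k : G) : ZMod 3 := qE D S f (g * k) - qE D S f g - qE D S f k

theorem Par.tr_mem {L : ZMod 3 → G} (h : Par D S L) (t : ZMod 3) : Tr L t ∈ EE D S := by
  by_cases n : t = 0
  · rw [n, h.tr_zero]; exact one_mem _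
  · exact subset_closure ⟨_, h.comp 0 n, by simp [Tr]⟩

theorem EE_ind {p : G → Prop} (h1 : p 1) (h2 : ∀ L, Par D S L → ∀ g ∈ EE D S, p g → p (Tr L 1 * g)) {g : G}
    (hg : g ∈ EE D S) : p g := by
  induction hg using closure_induction_left with
  | one => exact h1
  | mul_left x hx y hy ih => obtain ⟨L, hL, rfl⟩ := hx; exact h2 L hL y hy ih
  | inv_mul_cancel x hx y hy ih =>
    obtain ⟨L, hL, rfl⟩ := hx
    have := h2 _ (hL.comp 0 (e := -1) (by decide)) y hy ih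
    rw [hL.tr_inv]; simpa [Tr] using this

theorem EE_le (hT : T3 D) : EE D S ≤ normalizer S := by
  rw [EE, closure_le]
  rintro _ ⟨L, hL, rfl⟩
  exact hL.mem_norm hT 1 one_ne_zero fun j => by rw [hL.sh 1, one_mul, add_comm]

theorem EE_conj (hT : T3 D) {g p : G} (hg : g ∈ EE D S) (hp : p ∈ S) : g * p * g⁻¹ ∈ S := (EE_le hT hg p).1 hp

theorem NN_conj (hT : T3 D) {g : G} (hg : g ∈ normalizer S) (p q : G) :
    NN D S (g * p * g⁻¹) (g * q * g⁻¹) = NN D S p q := by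
  classical
  rw [NN, NN, show g * p * g⁻¹ * (g * q * g⁻¹) * (g * p * g⁻¹) = g * (p * q * p) * g⁻¹ by group]
  exact if_congr (hT.conj_mem_Dc_iff g) rfl (if_congr (hg _).symm rfl rfl)

theorem NN_eq_zero {p q : G} : NN D S p q = 0 ↔ q ∈ Dc D p := by
  simp only [NN]; split_ifs with c <;> simp [c]

theorem NN_eq_one {p q : G} : NN D S p q = 1 ↔ q ∉ Dc D p ∧ p * q * p ∉ S := by
  simp only [NN]; split_ifs with c c' <;> simp +decide [*]

theorem NN_self (hT : T3 D) {p : G} (hp : p ∈ D) (hs : p ∈ S) : NN D S p p = -1 := by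
  simp [NN, mem_Dc, hT.mul_self hp, hs]

theorem NN_symm (hT : T3 D) {p q : G} (hp : p ∈ D) (hq : q ∈ D) : NN D S p q = NN D S q p := by
  by_cases c : Commute p q
  · by_cases e : p = q
    · rw [e]
    · rw [NN_eq_zero.2 ⟨hq, Ne.symm e, c⟩, NN_eq_zero.2 ⟨hp, e, c.symm⟩]
  · rw [NN, NN, hT.braid hp hq c, if_neg fun k => c k.2.2, if_neg fun k : p ∈ Dc D q => c k.2.2.symm]

theorem NN_nc (hT : T3 D) {p q : G} (hq : q ∈ D) (hs : q ∈ S) (e : NN D S p q = 1) : ¬ Commute p q := fun c => by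
  obtain ⟨h1, h2⟩ := NN_eq_one.1 e
  obtain rfl : q = p := by_contra fun n => h1 ⟨hq, n, c⟩
  exact h2 (by rwa [hT.mul_self hq, one_mul])

theorem Par.rec1 (hT : T3 D) {L : ZMod 3 → G} (hL : Par D S L) {p q : G} (hp : p ∈ D) (hq : q ∈ D) {i j : ZMod 3}
    (b1 : Bat D L p i) (b2 : Bat D L q i) (n : j ≠ i) : NN D S p (L j * q * L j) = NN D S p q - 1 := by
  have h := hT.q3
  have c1 := b1.nc hL.toLn n
  have c2 := b2.nc hL.toLn n
  have m := hL.mem j
  have br := hT.braid m hq fun c => c2 c.symm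
  by_cases c : Commute p q
  · by_cases e : p = q
    · subst e
      rw [NN_self hT hp (hL.of_bat hp b1), NN_eq_one.2 ⟨fun k => hT.not_commute_s' m hp (fun c => c1 c.symm) k.2.2, by
        rw [br, ← mul_assoc, ← mul_assoc, hT.mul_self hp, one_mul, mul_assoc, hT.mul_self hp, mul_one]
        exact hL.notMem' j⟩]
      rfl
    have e1 : p * (L j * q * L j) * p = p * q * L j * (p * q)⁻¹ := by
      rw [br, mul_inv_rev, hT.inv_eq hp, hT.inv_eq hq]; group
    have m1 : p * q * L j * (p * q)⁻¹ ∈ D := hT.conj _ _ m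
    rw [NN_eq_zero.2 ⟨hq, Ne.symm e, c⟩, NN, if_neg fun k => c1 (by
      have := k.2.2; rwa [br, Commute.symm_iff, h.commute_s_of_commute hq c.symm, Commute.symm_iff] at this), e1, if_pos]
    · rfl
    have a1 : L j ∈ Dc D (p * q * L j * (p * q)⁻¹) := ⟨m, fun k =>
      c1 ((hT.commute_mul_iff hp hq m e c).1 (conj_eq_iff.1 k.symm)).1.symm, (hT.partner hp hq m e c c1 c2).symm⟩
    rcases hL.tri h (p * q * L j * (p * q)⁻¹) with k | k | ⟨t, k⟩
    · have := (k i).2.2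
      rw [← conj_eq_iff.2 (b1.mem.2.2.symm.mul_right b2.mem.2.2.symm), commute_conj_iff] at this
      exact absurd this (hL.nc _ _ n)
    · exact absurd a1 (k j)
    · exact hL.of_bat m1 k
  have r0 : L i ∈ Dc D (p * q * p) := Dc_symm (hL.mem i) ((h.dc _).cl _ (Dc_symm hp b1.mem) _ (Dc_symm hq b2.mem))
  have nq : q ∉ Dc D p := fun k => c k.2.2
  by_cases s : p * q * p ∈ S
  · obtain ⟨k, hk⟩ := hL.bat s
    obtain rfl : i = k := (hk i).1 r0
    obtain ⟨P, hP, p0, p1, p2⟩ := h.exists_plane m hp hq ⟨fun c => c1 c.symm, fun c => c2 c.symm, c,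
      fun c => hk.nc hL.toLn n c.symm⟩
    rw [NN, NN, if_neg nq, if_pos s, ← p0, ← p1, ← p2, hP.refl, hP.refl, if_neg fun k => hP.nc _ _ (by decide) k.2.2,
      if_neg]
    · rfl
    intro k
    obtain ⟨t, ht⟩ := hL.bat k
    have a1 := b1.mem.2.2.symm
    have a2 := b2.mem.2.2.symm
    have a3 := ht.mem.2.2.symm
    rw [← p1] at a1
    rw [← p2] at a2
    have : t = i ∨ t = j ∨ t = -j - i := by clear * - n; revert i j t; decide
    rcases this with rfl | rfl | rfl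
    · exact hL.nc _ _ n.symm (p0 ▸ hP.third (hP.third a3 a1) a2)
    · exact hP.nc _ _ (by decide) (p0 ▸ a3)
    · rw [← hL.refl, ← p0, h.s_commute (hP.mem _), hP.refl] at a3
      exact hL.nc _ _ n.symm (p0 ▸ hP.third (hP.third a3 a1) (hP.third a1 a2))
  · have k := hL.all h (hT.s_mem hp hq) s r0 j
    rw [NN_eq_one.2 ⟨nq, s⟩, sub_self, NN_eq_zero]
    refine ⟨hT.s_mem m hq, fun e => k.2.1 ?_, ?_⟩
    · rw [← hT.s_s hq (L j), ← br, e, hT.braid hp hq c]
    · rcases h.tri m hp (fun c => c1 c.symm) (fun c => c2 c.symm) with a | a | a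
      exacts [absurd a c, a, absurd k.2.2.symm a.xc]

theorem Par.rec2 (hT : T3 D) {L : ZMod 3 → G} (hL : Par D S L) {p q : G} (hp : p ∈ D) (hq : q ∈ D) {i : ZMod 3}
    (b1 : Bat D L p i) (b2 : Bat D L q i) (t : ZMod 3) :
    NN D S p (Tr L t * q * (Tr L t)⁻¹) = NN D S p q - t ^ 2 := by
  by_cases n : t = 0
  · simp [n, hL.tr_zero]
  have := hL.mul_eq (i - t) t
  rw [sub_add_cancel] at this
  rw [← this, show L (i - t) * L i * q * (L (i - t) * L i)⁻¹ = L (i - t) * (L i * q * (L i)⁻¹) * (L (i - t))⁻¹ by group,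
    conj_eq_iff.2 b2.mem.2.2, hL.inv, hL.rec1 hT hp hq b1 b2 (by simpa using n),
    show t ^ 2 = 1 by clear * - n; revert t; decide]

theorem Par.rec3 (hT : T3 D) {L : ZMod 3 → G} (hL : Par D S L) {p q : G} (hp : p ∈ D) (hq : q ∈ D) {i k : ZMod 3}
    (b1 : Bat D L p i) (b2 : Bat D L q k) : NN D S p (Tr L 1 * q * (Tr L 1)⁻¹) = NN D S p q + (k - i) - 1 := by
  have b3 := b2.sh hT (hL.sh (i - k))
  rw [add_sub_cancel] at b3
  have k1 := hL.rec2 hT hp (hT.conj _ _ hq) b1 b3 (k - i)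
  have k2 := hL.rec2 hT hp (hT.conj _ _ hq) b1 b3 (1 + (k - i))
  have e : ∀ s, Tr L s * (Tr L (i - k) * q * (Tr L (i - k))⁻¹) * (Tr L s)⁻¹ =
      Tr L (s + (i - k)) * q * (Tr L (s + (i - k)))⁻¹ := fun s => by rw [← hL.tr_add]; group
  rw [e, sub_add_sub_cancel, sub_self, hL.tr_zero, one_mul, inv_one, mul_one] at k1
  rw [e, add_assoc, sub_add_sub_cancel, sub_self, add_zero] at k2
  rw [k2, k1]
  generalize k - i = x; generalize NN D S p _ = y; revert x y; decide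

namespace FP

set_option linter.unusedSectionVars false

variable [Finite G] (h : FP D) (hX : NoX D)
include h hX

theorem exists_sh {g : G} (hg : g ∈ EE D S) {L : ZMod 3 → G} (hL : Par D S L) : ∃ t, Sh g L t := by
  refine EE_ind (p := fun g => ∃ t, Sh g L t) ⟨0, sh_one L⟩ (fun M hM g _ ⟨t, ht⟩ => ?_) hg
  rcases h.par_par hX hL hM with c | ⟨-, s, -, c⟩
  · exact ⟨_, (sh_of_commute fun j => (c 0 j).2.2.symm.mul_right (c 1 j).2.2.symm).mul ht⟩
  · exact ⟨_, c.mul ht⟩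

theorem EE_comm {g k : G} (hg : g ∈ EE D S) (hk : k ∈ EE D S) : Commute g k :=
  commute_of_mem_closure (by
    rintro _ ⟨L, hL, rfl⟩
    obtain ⟨t, ht⟩ := h.exists_sh hX hg hL
    exact (hL.commute ht 1).symm) hk

variable {f : G} (hf : f ∈ D) (hs : f ∈ S)
include hf hs

omit hX in
theorem qf_one : qE D S f 1 = 0 := by simp [qE, NN_self h.toT3 hf hs]

omit hX in
theorem qf_tr {g : G} {L : ZMod 3 → G} (hL : Par D S L) {t : ZMod 3} (ht : Sh g L t) :
    qE D S f (Tr L 1 * g) = qE D S f g + 1 - t := by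
  obtain ⟨i, hi⟩ := hL.bat hs
  rw [qE, qE, show Tr L 1 * g * f * (Tr L 1 * g)⁻¹ = Tr L 1 * (g * f * g⁻¹) * (Tr L 1)⁻¹ by group,
    hL.rec3 h.toT3 hf (h.conj g f hf) hi (hi.sh h.toT3 ht)]
  ring

omit hX in
theorem qf_tr_one {L : ZMod 3 → G} (hL : Par D S L) : qE D S f (Tr L 1) = 1 := by
  simpa [h.qf_one hf hs] using h.qf_tr hf hs hL (sh_one L)

theorem bf_tr {g : G} (hg : g ∈ EE D S) {L : ZMod 3 → G} (hL : Par D S L) {t : ZMod 3} (ht : Sh g L t) :
    bf D S f g (Tr L 1) = -t := by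
  rw [bf, (h.EE_comm hX hg (hL.tr_mem 1)).eq, h.qf_tr hf hs hL ht, h.qf_tr_one hf hs hL]; ring

omit hf hs in
theorem bf_symm {g k : G} (hg : g ∈ EE D S) (hk : k ∈ EE D S) : bf D S f g k = bf D S f k g := by
  rw [bf, bf, (h.EE_comm hX hg hk).eq]; ring

theorem bf_add {g g' k : G} (hg : g ∈ EE D S) (hg' : g' ∈ EE D S) (hk : k ∈ EE D S) :
    bf D S f (g * g') k = bf D S f g k + bf D S f g' k := by
  refine EE_ind (p := fun k => bf D S f (g * g') k = bf D S f g k + bf D S f g' k) (by simp [bf, h.qf_one hf hs])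
    (fun L hL k hk ih => ?_) hk
  obtain ⟨u, hu⟩ := h.exists_sh hX hk hL
  have e : ∀ g ∈ EE D S, ∀ t, Sh g L t → bf D S f g (Tr L 1 * k) = bf D S f g k - t := fun g hg t ht => by
    rw [bf, bf, ← mul_assoc, (h.EE_comm hX hg (hL.tr_mem 1)).eq, mul_assoc, h.qf_tr hf hs hL (ht.mul hu),
      h.qf_tr hf hs hL hu]
    ring
  obtain ⟨s, hs⟩ := h.exists_sh hX hg hL
  obtain ⟨t, ht⟩ := h.exists_sh hX hg' hL
  rw [e _ (mul_mem hg hg') _ (hs.mul ht), e g hg s hs, e g' hg' t ht, ih]; ring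

theorem bf_inv {g k : G} (hg : g ∈ EE D S) (hk : k ∈ EE D S) : bf D S f g⁻¹ k = -bf D S f g k := by
  have := h.bf_add hX hf hs hg (inv_mem hg) hk
  rw [mul_inv_cancel, bf, one_mul, h.qf_one hf hs] at this
  linear_combination -this

omit hX hf hs in
theorem NN_two {g k : G} (hg : g ∈ EE D S) : NN D S (g * f * g⁻¹) (k * f * k⁻¹) = -1 - qE D S f (g⁻¹ * k) := by
  rw [qE, ← NN_conj h.toT3 (EE_le h.toT3 hg) f, show g * (g⁻¹ * k * f * (g⁻¹ * k)⁻¹) * g⁻¹ = k * f * k⁻¹ by group]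
  ring

omit hX hs in
theorem qf_inv {g : G} (hg : g ∈ EE D S) : qE D S f g⁻¹ = qE D S f g := by
  have := h.NN_two (f := f) (k := 1) hg
  rw [NN_symm h.toT3 (h.conj _ _ hf) (h.conj _ _ hf), mul_one g⁻¹] at this
  rw [qE.eq_1 D S f g, show f = 1 * f * 1⁻¹ by group]
  simp only [one_mul, inv_one, mul_one] at this ⊢
  linear_combination this

theorem bf_self {g : G} (hg : g ∈ EE D S) : bf D S f g g = -qE D S f g := by
  have := h.bf_inv hX hf hs hg hg
  rw [bf, inv_mul_cancel, h.qf_one hf hs, h.qf_inv hf hg] at this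
  have h3 : (3 : ZMod 3) = 0 := rfl
  linear_combination this + qE D S f g * h3

theorem NN_two' {g k : G} (hg : g ∈ EE D S) (hk : k ∈ EE D S) :
    NN D S (g * f * g⁻¹) (k * f * k⁻¹) = -1 - qE D S f g - qE D S f k + bf D S f g k := by
  have := h.bf_inv hX hf hs hg hk
  rw [bf, h.qf_inv hf hg] at this
  rw [h.NN_two hg]; linear_combination -this

theorem aligned {p q : G} (hp : p ∈ S) (hq : q ∈ D) (ha : ∀ L, Par D S L → ∀ i, Bat D L p i → Bat D L q i) {w : G}
    (hw : w ∈ EE D S) (hp' : p ∈ D) : NN D S p (w * q * w⁻¹) = NN D S p q - qE D S f w := by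
  refine EE_ind (p := fun w => NN D S p (w * q * w⁻¹) = NN D S p q - qE D S f w) (by simp [h.qf_one hf hs])
    (fun L hL w hw ih => ?_) hw
  obtain ⟨t, ht⟩ := h.exists_sh hX hw hL
  obtain ⟨i, hi⟩ := hL.bat hp
  rw [h.qf_tr hf hs hL ht, show Tr L 1 * w * q * (Tr L 1 * w)⁻¹ = Tr L 1 * (w * q * w⁻¹) * (Tr L 1)⁻¹ by group,
    hL.rec3 h.toT3 hp' (h.conj w q hq) hi ((ha L hL i hi).sh h.toT3 ht), ih]
  ring

end FP

end H56
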