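import Mathlib
import Cfsg.Agent.Base
import Cfsg.Agent.Lib.Fischer.Sieg
import Cfsg.Agent.Lib.L0.Refl3

/-!
# Recognition of the reflection groups over the field with three elements
-/

set_option autoImplicit false

namespace H56

open Cfsg Subgroup QuadraticMap Module

variable {G : Type*} [Group G] {D S : Set G}

/-- three parallel lines in general position -/
structure OS (D S : Set G) (A B C : ZMod 3 → G) : Prop extends FP D where
  nox : NoX D
  pa : Par D S A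
  pb : Par D S B
  pc : Par D S C
  ac : ∀ i j, A j ∈ Dc D (C i)
  ab : ∀ i j, A j ∉ Dc D (B i)
  cb : ∀ i j, C j ∉ Dc D (B i)

theorem TC.exists_nc (h : TC D) (hn : ∀ a ∈ D, ∃ b ∈ D, ¬ Commute a b) (hS : S ⊆ D) {b : G} (hb : b ∈ S)
    (hN : ∀ x ∈ D, x ∉ S → x ∈ normalizer S) {y : G} (hy : y ∈ D) : ∃ a ∈ S, ¬ Commute y a := by
  by_contra c
  push Not at c
  have st : ∀ x ∈ D, ∀ y ∈ D, (∀ a ∈ S, Commute y a) → ∀ a ∈ S, Commute (x * y * x⁻¹) a := by
    intro x hx y hy c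
    by_cases e : ∀ a ∈ S, Commute x a
    · exact fun a ha => ((e a ha).mul_left (c a ha)).mul_left (e a ha).inv_left
    push Not at e
    obtain ⟨a, ha, e⟩ := e
    suffices k : Commute y x by rwa [conj_eq_iff.2 k]
    by_cases s : x ∈ S
    · exact c x s
    have := c _ ((hN x hx s a).1 ha)
    rwa [h.inv_eq hx, h.braid hx (hS ha) e, Commute.symm_iff, h.q3.commute_s_of_commute (hS ha) (c a ha).symm,
      Commute.symm_iff] at this
  have all : ∀ g, ∀ a ∈ S, Commute (g * y * g⁻¹) a := fun g => by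
    have hg : g ∈ closure D := h.gen ▸ mem_top g
    induction hg using closure_induction_left with
    | one => simpa using c
    | mul_left x hx g _ ih => simpa [mul_assoc] using st x hx _ (h.conj g y hy) ih
    | inv_mul_cancel x hx g _ ih => simpa [mul_assoc, h.inv_eq hx] using st x hx _ (h.conj g y hy) ih
  obtain ⟨a, ha, n⟩ := hn b (hS hb)
  obtain ⟨g, rfl⟩ := h.trans y hy a ha
  exact n (all g b hb).symm

theorem FP.exists_OS [Finite G] (h : FP D) (hX : NoX D) (hA : ¬ NoAff D) : ∃ S A B C, OS D S A B C := by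
  rw [noAff_iff] at hA
  push Not at hA
  obtain ⟨x, hx, a, ha, b, hb, hA⟩ := hA
  obtain ⟨P, hP, -⟩ := h.q3.exists_plane hx ha hb hA
  obtain ⟨e, he, c⟩ := h.exists_Dc_not_commute (hP.mem 0) (hP.mem (1, 0)) (hP.nc _ _ (by decide))
  obtain ⟨a, b, c0, f⟩ := hX P hP e he.1
  obtain rfl : c0 = 0 := by simpa using ((f 0).1 (Dc_symm (hP.mem 0) he)).symm
  have n : a ≠ 0 := fun k => c ((f _).2 (by simp [k])).2.2.symm
  let Q : ZMod 3 × ZMod 3 → G := fun u => P (a * u.2 - b * u.1, a * u.1)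
  have hQ : Plane D Q := ⟨fun _ => hP.mem _, fun u v => by rw [hP.refl]; simp only [Q]; congr 1; ext <;> simp <;> ring,
    fun u v k => hP.nc _ _ (by clear * - n k; revert a b u v; decide +kernel)⟩
  have f' : ∀ u, Q u ∈ Dc D e ↔ u.2 = 0 := fun u => by rw [f]; clear * - n; revert a b u; decide +kernel
  have pa : Par D (BB D fun i => Q (i, 0)) fun i => Q (i, 0) := ⟨hQ.row 0, rfl⟩
  have pb := pa.row hX hQ 1
  have ne : e ∉ BB D fun i => Q (i, 0) := fun ⟨_, i, hi⟩ => by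
    have := (hi (i + 1)).1 ((f' _).2 rfl); simp at this
  have k : ∀ i, Q (i, 1) ∉ Dc D e := fun i k => by simpa using (f' _).1 k
  obtain ⟨C, pc, rfl, -⟩ := h.exists_par hX pb he.1 ne (i := 0) fun c => k 0 ⟨hQ.mem _, fun e' =>
    hQ.nc _ _ (by decide) (e' ▸ ((f' (0, 0)).2 rfl).2.2), c⟩
  refine ⟨_, _, _, C, h, hX, pa, pb, pc, ?_, fun i j c => hQ.nc _ _ (by simp) c.2.2, ?_⟩
  · exact (h.par_par hX pa pc).resolve_right fun c => c.1 0 0 ((f' _).2 rfl)
  · exact ((h.par_par hX pc pb).resolve_left fun c => k 0 (Dc_symm (hQ.mem _) (c 0 0))).1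

namespace OS

set_option linter.unusedSectionVars false

variable [Finite G] {A B C : ZMod 3 → G} (h : OS D S A B C)
include h

theorem sub : S ⊆ D := fun _ => h.pa.sub

theorem nonempty : ∃ f, f ∈ S := by
  obtain ⟨p, hp, c⟩ := h.exists_Dc_not_commute (h.pa.mem 0) (h.pa.mem 1) (h.pa.nc _ _ (by decide))
  rcases h.pa.tri h.q3 p with k | k | ⟨i, k⟩
  exacts [absurd (k 1).2.2.symm c, absurd (Dc_symm (h.pa.mem 0) hp) (k 0), ⟨p, h.pa.of_bat hp.1 k⟩]

theorem mem_norm {x : G} (hx : x ∈ D) (n : x ∉ S) : x ∈ normalizer S := by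
  by_cases c : ∀ i, Commute x (A i)
  · exact h.pa.mem_norm h.toT3 0 one_ne_zero fun j => by simpa using conj_eq_iff.2 (c j).symm
  push Not at c
  obtain ⟨i, c⟩ := c
  obtain ⟨L, hL, rfl, -⟩ := h.exists_par h.nox h.pa hx n c
  exact hL.mem_norm h.toT3 0 (e := -1) (by decide) fun j => by rw [hL.inv, hL.refl]; congr 1; ring

theorem sh_ac (t : ZMod 3) : Sh (Tr C t) A 0 :=
  sh_of_commute fun j => (h.ac 0 j).2.2.symm.mul_right (h.ac t j).2.2.symm

theorem sh_ca (t : ZMod 3) : Sh (Tr A t) C 0 := sh_of_commute fun j => (h.ac j 0).2.2.mul_right (h.ac j t).2.2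

theorem sh_ba : ∃ t, t ≠ 0 ∧ Sh (Tr B 1) A t := ((h.par_par h.nox h.pa h.pb).resolve_left fun c => h.ab 0 0 (c 0 0)).2

theorem sh_bc : ∃ t, t ≠ 0 ∧ Sh (Tr B 1) C t := ((h.par_par h.nox h.pc h.pb).resolve_left fun c => h.cb 0 0 (c 0 0)).2

theorem on_par {y : G} (hy : y ∈ D) (n : y ∉ S) : ∃ L, Par D S L ∧ L 0 = y := by
  by_contra c
  have k : ∀ L, Par D S L → ∀ i, Commute y (L i) := fun L hL i => by_contra fun c' => by
    obtain ⟨M, hM, e, -⟩ := h.exists_par h.nox hL hy n c'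
    exact c ⟨M, hM, e⟩
  obtain ⟨f, hs⟩ := h.nonempty
  have hf := h.sub hs
  obtain ⟨b, hb, yb⟩ := h.toTC.exists_nc (fun _ ha => h.exists_not_commute ha) h.sub hs (fun _ => h.mem_norm) hy
  have mb := h.sub hb
  obtain ⟨s, s0, hs1⟩ := h.sh_ba
  obtain ⟨t, t0, ht⟩ := h.sh_bc
  have pa := h.pa.comp 0 (neg_ne_zero.2 s0)
  have e0 : Tr (fun i => A (0 + -s * i)) 1 = Tr A (-s) := by simp [Tr]
  have hw : Tr A (-s) * Tr B 1 ∈ EE D S := mul_mem (h.pa.tr_mem _) (h.pb.tr_mem _)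
  have q0 : qE D S f (Tr A (-s) * Tr B 1) = 0 := by
    rw [← e0, h.qf_tr hf hs pa (t := -1) fun j => by rw [hs1]; congr 1; clear * - s0; revert s j; decide,
      h.qf_tr_one hf hs h.pb]
    rfl
  have hc := (h.sh_ca (-s)).mul ht
  have yw : Commute y (Tr A (-s) * Tr B 1) :=
    ((k _ h.pa _).mul_right (k _ h.pa _)).mul_right ((k _ h.pb _).mul_right (k _ h.pb _))
  generalize Tr A (-s) * Tr B 1 = w at *
  have m1 := h.conj y b mb
  have a1 := h.aligned h.nox hf hs hb m1 (fun L hL i hi => by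
    simpa using hi.sh h.toT3 (sh_of_commute fun j => (k L hL j).symm)) hw mb
  have a2 := h.aligned h.nox hf hs hb mb (fun L hL i hi => hi) hw mb
  have br := h.braid hy mb yb
  rw [q0, sub_zero, h.inv_eq hy, NN_eq_one (q := y * b * y).2 ⟨fun c => h.not_commute_s' hy mb yb c.2.2, by
    rwa [br, h.s_s mb]⟩] at a1
  rw [q0, sub_zero, NN_self h.toT3 mb hb] at a2
  rw [h.inv_eq hy] at m1
  have s1 : y * b * y ∈ S := by simpa only [h.inv_eq hy] using (h.mem_norm hy n b).1 hb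
  have m2 := h.conj w _ m1
  have c1 := NN_nc h.toT3 m2 (EE_conj h.toT3 hw s1) a1
  obtain ⟨i, hi⟩ := h.pc.bat hb
  have b1 : Bat D C (y * b * y) i := by
    simpa [h.inv_eq hy] using hi.sh h.toT3 (sh_of_commute fun j => (k C h.pc j).symm)
  have b2 := (b1.sh h.toT3 hc).nc h.pc.toLn (j := i) (by simpa using t0)
  obtain ⟨M, hM, e, -⟩ := h.exists_par h.nox h.pc (h.s_mem mb m2) (NN_eq_one.1 a1).2 (i := i) (by
    rwa [h.q3.commute_s_of_commute mb hi.mem.2.2])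
  have e1 : y * (w * (y * b * y) * w⁻¹) * y = w * b * w⁻¹ := by
    calc _ = (y * w) * (y * b * y) * (w⁻¹ * y) := by group
      _ = w * (y * (y * b * y) * y) * w⁻¹ := by rw [yw.eq, ← yw.inv_right.eq]; group
      _ = _ := by rw [h.s_s hy]
  rcases h.q3.tri hy mb yb (a := w * (y * b * y) * w⁻¹) (by
    rw [← conj_eq_iff.2 yw]; nth_rewrite 2 3 [conj_eq_iff.2 yw]; rw [commute_conj_iff]
    exact h.not_commute_s hy yb) with c | c | c
  · exact c1 c
  · rw [e1] at c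
    rw [NN_eq_zero.2 ⟨h.conj _ _ mb, fun e => t0 (by
      have := hi.uniq (e ▸ hi.sh h.toT3 hc); linear_combination -this), c⟩] at a2
    exact absurd a2 (by decide)
  · exact c.xc (e ▸ k M hM 0)

theorem third {p q : G} (hp : p ∈ S) (hq : q ∈ S) (e : NN D S p q = 1) :
    ∃ L, Par D S L ∧ Tr L 1 * p * (Tr L 1)⁻¹ = q := by
  have c := NN_nc h.toT3 (h.sub hq) hq e
  obtain ⟨L, hL, e1⟩ := h.on_par (h.s_mem (h.sub hp) (h.sub hq)) (NN_eq_one.1 e).2
  obtain ⟨k, hk⟩ := hL.bat hp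
  have c1 : ¬ Commute p (L 0) := e1 ▸ h.not_commute_s (h.sub hp) c
  refine ⟨_, hL.comp 0 (e := k) (by rintro rfl; exact c1 hk.mem.2.2), ?_⟩
  simp only [Tr, mul_zero, add_zero, mul_one, zero_add]
  rw [show L 0 * L k * p * (L 0 * L k)⁻¹ = L 0 * (L k * p * (L k)⁻¹) * (L 0)⁻¹ by group, conj_eq_iff.2 hk.mem.2.2,
    hL.inv, ← h.braid (h.sub hp) (hL.mem 0) c1, e1, h.s_s (h.sub hp)]

theorem trans_S {p q : G} (hp : p ∈ S) (hq : q ∈ S) : ∃ g ∈ EE D S, g * p * g⁻¹ = q := by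
  have fin : ∀ g ∈ EE D S, NN D S p (g * q * g⁻¹) = 1 → ∃ g ∈ EE D S, g * p * g⁻¹ = q := fun g hg e => by
    obtain ⟨L, hL, e1⟩ := h.third hp (EE_conj h.toT3 hg hq) e
    refine ⟨g⁻¹ * Tr L 1, mul_mem (inv_mem hg) (hL.tr_mem 1), ?_⟩
    rw [show g⁻¹ * Tr L 1 * p * (g⁻¹ * Tr L 1)⁻¹ = g⁻¹ * (Tr L 1 * p * (Tr L 1)⁻¹) * g by group, e1]; group
  obtain ⟨i, hi⟩ := h.pa.bat hp
  obtain ⟨j, hj⟩ := h.pc.bat hp
  obtain ⟨i', hi'⟩ := h.pa.bat hq
  obtain ⟨j', hj'⟩ := h.pc.bat hq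
  have hg : Tr C (j - j') * Tr A (i - i') ∈ EE D S := mul_mem (h.pc.tr_mem _) (h.pa.tr_mem _)
  have b1 := hi'.sh h.toT3 ((h.sh_ac (j - j')).mul (h.pa.sh (i - i')))
  have b2 := hj'.sh h.toT3 ((h.pc.sh (j - j')).mul (h.sh_ca (i - i')))
  simp only [zero_add, add_zero, add_sub_cancel] at b1 b2
  generalize Tr C (j - j') * Tr A (i - i') = g at *
  have m := h.conj g q (h.sub hq)
  have r1 := h.pa.rec2 h.toT3 (h.sub hp) m hi b1 1
  have r2 := h.pc.rec2 h.toT3 (h.sub hp) (h.conj _ _ m) hj (by simpa using b2.sh h.toT3 (h.sh_ca 1)) 1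
  rcases z3_cases (NN D S p (g * q * g⁻¹)) with e | e | e
  · refine fin (Tr C 1 * Tr A 1 * g) (mul_mem (mul_mem (h.pc.tr_mem _) (h.pa.tr_mem _)) hg) ?_
    rw [r1, e] at r2
    simpa [mul_assoc] using r2.trans (by decide : (0 : ZMod 3) - 1 ^ 2 - 1 ^ 2 = 1)
  · exact fin g hg e
  · refine fin (Tr A 1 * g) (mul_mem (h.pa.tr_mem _) hg) ?_
    rw [e] at r1
    simpa [mul_assoc] using r1.trans (by decide : (2 : ZMod 3) - 1 ^ 2 = 1)

end OS

/-- linear model of `EE` -/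
structure HE (D S : Set G) (f : G) {n : ℕ} (B : LinearMap.BilinForm (ZMod 3) (Fin n → ZMod 3))
    (φ : G → Fin n → ZMod 3) : Prop where
  hs : ∀ u v, B u v = B v u
  nd : ∀ v, (∀ w, B v w = 0) → v = 0
  surj : ∀ w, ∃ g ∈ EE D S, φ g = w
  eq : ∀ g ∈ EE D S, ∀ k ∈ EE D S, B (φ g) (φ k) = bf D S f g k

/-- the quadratic form on the model -/
noncomputable def QX {n : ℕ} (B : LinearMap.BilinForm (ZMod 3) (Fin n → ZMod 3)) :
    QuadraticForm (ZMod 3) (ZMod 3 × ZMod 3 × (Fin n → ZMod 3)) :=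
  LinearMap.BilinMap.toQuadraticMap (LinearMap.mk₂ (ZMod 3) (fun x y => x.1 * y.2.1 - B x.2.2 y.2.2)
    (fun _ _ _ => by simp; ring) (fun _ _ _ => by simp; ring) (fun _ _ _ => by simp; ring) fun _ _ _ => by simp; ring)

theorem QX_apply {n : ℕ} (B : LinearMap.BilinForm (ZMod 3) (Fin n → ZMod 3)) (x) :
    QX B x = x.1 * x.2.1 - B x.2.2 x.2.2 := rfl

theorem QX_polar {n : ℕ} {B : LinearMap.BilinForm (ZMod 3) (Fin n → ZMod 3)} (hs : ∀ u v, B u v = B v u) (x y) :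
    polar (QX B) x y = x.1 * y.2.1 + x.2.1 * y.1 + B x.2.2 y.2.2 := by
  have h3 : (3 : ZMod 3) = 0 := rfl
  simp only [polar, QX_apply, Prod.fst_add, Prod.snd_add, map_add, LinearMap.add_apply, hs y.2.2 x.2.2]
  linear_combination (-B x.2.2 y.2.2) * h3

/-- the vector of a point -/
def Rel3 (D S : Set G) (f : G) {n : ℕ} (φ : G → Fin n → ZMod 3) (p : G) (v : ZMod 3 × ZMod 3 × (Fin n → ZMod 3)) : Prop :=
  (∃ g ∈ EE D S, p = g * f * g⁻¹ ∧ v = (1 - qE D S f g, 1, φ g)) ∨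
    ∃ L, Par D S L ∧ ∃ i k, p = L i ∧ Bat D L f k ∧ v = (i - k, 0, φ (Tr L 1))

namespace OS

set_option linter.unusedSectionVars false

variable [Finite G] {A B C : ZMod 3 → G} (h : OS D S A B C) {f : G} (hs : f ∈ S)
include h hs

theorem exists_HE : ∃ n, 3 ≤ n ∧ ∃ (B : LinearMap.BilinForm (ZMod 3) (Fin n → ZMod 3)) (φ : G → _), HE D S f B φ := by
  classical
  have hf := h.sub hs
  obtain ⟨n, B', φ, h1, h2, h3, h4⟩ := exists_gram (F := ZMod 3) (ι := EE D S) (fun g k => bf D S f g k)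
    fun a b => h.bf_symm h.nox a.2 b.2
  have add : ∀ g k, φ (g * k) = φ g + φ k := fun g k => by
    rw [← sub_eq_zero]
    refine h3 _ fun a => ?_
    simp only [map_sub, map_add, LinearMap.sub_apply, LinearMap.add_apply, h1, coe_mul]
    rw [h.bf_add h.nox hf hs g.2 k.2 a.2, sub_self]
  have z : φ 1 = 0 := by simpa using add 1 1
  refine ⟨n, ?_, B', fun g => if hg : g ∈ EE D S then φ ⟨g, hg⟩ else 0, h4, fun v hv => h3 v fun a => hv _,
    fun w => ?_, fun g hg k hk => by simp only [dif_pos hg, dif_pos hk, h1]⟩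
  · obtain ⟨s, s0, e1⟩ := h.sh_ba
    obtain ⟨t, t0, e2⟩ := h.sh_bc
    let a : EE D S := ⟨_, h.pa.tr_mem 1⟩
    let b : EE D S := ⟨_, h.pb.tr_mem 1⟩
    let c : EE D S := ⟨_, h.pc.tr_mem 1⟩
    have ba : B' (φ b) (φ a) = -s := by rw [h1, h.bf_tr h.nox hf hs b.2 h.pa e1]
    have bc : B' (φ b) (φ c) = -t := by rw [h1, h.bf_tr h.nox hf hs b.2 h.pc e2]
    have ca : B' (φ c) (φ a) = -0 := by rw [h1, h.bf_tr h.nox hf hs c.2 h.pa (h.sh_ac 1)]
    have aa : B' (φ a) (φ a) = -1 := by rw [h1, h.bf_tr h.nox hf hs a.2 h.pa (h.pa.sh 1)]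
    have bb : B' (φ b) (φ b) = -1 := by rw [h1, h.bf_tr h.nox hf hs b.2 h.pb (h.pb.sh 1)]
    have cc : B' (φ c) (φ c) = -1 := by rw [h1, h.bf_tr h.nox hf hs c.2 h.pc (h.pc.sh 1)]
    have : LinearIndependent (ZMod 3) ![φ a, φ b, φ c] := by
      rw [Fintype.linearIndependent_iff]
      intro g e
      have k := fun w => congrArg (fun v => B' v (φ w)) e
      simp only [Fin.sum_univ_three, Matrix.cons_val, map_add, map_smul, LinearMap.add_apply, LinearMap.smul_apply,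
        map_zero, LinearMap.zero_apply, smul_eq_mul] at k
      have k1 := k a
      have k2 := k b
      have k3 := k c
      rw [aa, ba, ca] at k1
      rw [h4 (φ a), h4 (φ c), ba, bb, bc] at k2
      rw [h4 (φ a), ca, bc, cc] at k3
      have : g 0 = 0 ∧ g 1 = 0 ∧ g 2 = 0 := by
        revert k1 k2 k3; generalize g 0 = x; generalize g 1 = y; generalize g 2 = w
        clear * - s0 t0; revert s t x y w; decide
      intro i; fin_cases i
      exacts [this.1, this.2.1, this.2.2]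
    simpa using this.fintype_card_le_finrank
  · have hw : w ∈ Submodule.span (ZMod 3) (Set.range φ) := h2 ▸ Submodule.mem_top
    suffices ∃ g, φ g = w by
      obtain ⟨g, e⟩ := this
      exact ⟨g, g.2, by simp only [dif_pos g.2]; exact e⟩
    induction hw using Submodule.span_induction with
    | mem x hx => exact hx
    | zero => exact ⟨1, z⟩
    | add x y _ _ hx hy => obtain ⟨g, rfl⟩ := hx; obtain ⟨k, rfl⟩ := hy; exact ⟨_, add g k⟩
    | smul c x _ hx =>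
      obtain ⟨g, rfl⟩ := hx
      rcases z3_cases c with rfl | rfl | rfl
      exacts [⟨1, by simp [z]⟩, ⟨g, by simp⟩, ⟨g * g, by rw [add, two_smul]⟩]

variable {n : ℕ} {B' : LinearMap.BilinForm (ZMod 3) (Fin n → ZMod 3)} {φ : G → Fin n → ZMod 3} (H : HE D S f B' φ)

theorem rel_ex (φ : G → Fin n → ZMod 3) {p : G} (hp : p ∈ D) : ∃ v, Rel3 D S f φ p v := by
  by_cases c : p ∈ S
  · obtain ⟨g, hg, rfl⟩ := h.trans_S hs c
    exact ⟨_, Or.inl ⟨g, hg, rfl, rfl⟩⟩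
  · obtain ⟨L, hL, rfl⟩ := h.on_par hp c
    obtain ⟨k, hk⟩ := hL.bat hs
    exact ⟨_, Or.inr ⟨L, hL, 0, k, rfl, hk, rfl⟩⟩

theorem rel_mem {p : G} {v} (hv : Rel3 D S f φ p v) : p ∈ D := by
  rcases hv with ⟨g, hg, rfl, -⟩ | ⟨L, hL, i, -, rfl, -⟩
  exacts [h.conj g f (h.sub hs), hL.mem i]

include H

theorem phi_ext {g k : G} (hg : g ∈ EE D S) (hk : k ∈ EE D S) (e : g * f * g⁻¹ = k * f * k⁻¹) :
    qE D S f g = qE D S f k ∧ φ g = φ k := by
  have e1 : qE D S f g = qE D S f k := by rw [qE, qE, e]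
  refine ⟨e1, sub_eq_zero.1 (H.nd _ fun w => ?_)⟩
  obtain ⟨a, ha, rfl⟩ := H.surj w
  have k1 := h.NN_two' h.nox (h.sub hs) hs hg ha
  rw [e, h.NN_two' h.nox (h.sub hs) hs hk ha, e1] at k1
  rw [map_sub, LinearMap.sub_apply, H.eq g hg a ha, H.eq k hk a ha]
  linear_combination -k1

theorem rel_q {p : G} {v} (hv : Rel3 D S f φ p v) : QX B' v = 1 := by
  rcases hv with ⟨g, hg, rfl, rfl⟩ | ⟨L, hL, i, k, rfl, hk, rfl⟩
  · rw [QX_apply, H.eq g hg g hg, h.bf_self h.nox (h.sub hs) hs hg]; ring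
  · rw [QX_apply, H.eq _ (hL.tr_mem 1) _ (hL.tr_mem 1), h.bf_tr h.nox (h.sub hs) hs (hL.tr_mem 1) hL (hL.sh 1)]; ring

theorem rel_iff {p p' : G} {v v'} (hv : Rel3 D S f φ p v) (hv' : Rel3 D S f φ p' v') :
    p' ∈ Dc D p ↔ polar (QX B') v v' = 0 := by
  have hf := h.sub hs
  have a : ∀ {g L i k}, g ∈ EE D S → Par D S L → Bat D L f k → (L i ∈ Dc D (g * f * g⁻¹) ↔
      polar (QX B') (1 - qE D S f g, 1, φ g) (i - k, 0, φ (Tr L 1)) = 0) := by
    intro g L i k hg hL hk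
    obtain ⟨t, ht⟩ := h.exists_sh h.nox hg hL
    rw [QX_polar H.hs, H.eq g hg _ (hL.tr_mem 1), h.bf_tr h.nox hf hs hg hL ht, hk.sh h.toT3 ht]
    constructor <;> intro e <;> linear_combination e
  rcases hv with ⟨g, hg, rfl, rfl⟩ | ⟨L, hL, i, k, rfl, hk, rfl⟩ <;>
    rcases hv' with ⟨g', hg', rfl, rfl⟩ | ⟨L', hL', i', k', rfl, hk', rfl⟩
  · rw [← NN_eq_zero (S := S), h.NN_two' h.nox hf hs hg hg', QX_polar H.hs, H.eq g hg g' hg']
    have h3 : (3 : ZMod 3) = 0 := rfl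
    constructor <;> intro e
    · linear_combination e + h3
    · linear_combination e - h3
  · exact a hg hL' hk'
  · rw [polar_comm, ← a hg' hL hk]
    exact ⟨Dc_symm (hL.mem i), Dc_symm (h.conj _ _ hf)⟩
  · rw [QX_polar H.hs, H.eq _ (hL.tr_mem 1) _ (hL'.tr_mem 1)]
    rcases h.par_par h.nox hL' hL with c | ⟨c, t, t0, ht⟩
    · rw [h.bf_tr h.nox hf hs (hL.tr_mem 1) hL' (sh_of_commute fun j => (c 0 j).2.2.symm.mul_right (c 1 j).2.2.symm)]
      simp [c]
    · rw [h.bf_tr h.nox hf hs (hL.tr_mem 1) hL' ht]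
      simp [c, t0]

theorem rel_uniq {p : G} {v v'} (hv : Rel3 D S f φ p v) (hv' : Rel3 D S f φ p v') : v' = v ∨ v' = -v := by
  have hf := h.sub hs
  rcases hv with ⟨g, hg, rfl, rfl⟩ | ⟨L, hL, i, k, rfl, hk, rfl⟩ <;>
    rcases hv' with ⟨g', hg', e, rfl⟩ | ⟨L', hL', i', k', e, hk', rfl⟩
  · obtain ⟨e1, e2⟩ := h.phi_ext hs H hg hg' e
    rw [e1, e2]; exact Or.inl rfl
  · exact absurd (e ▸ EE_conj h.toT3 hg hs) (hL'.notMem' _)
  · exact absurd (e ▸ EE_conj h.toT3 hg' hs) (hL.notMem' _)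
  obtain ⟨t, t0, e1⟩ := h.par_uniq h.nox (hL.comp i one_ne_zero) (hL'.comp i' one_ne_zero) (by simpa using e.symm)
  have e2 : ∀ j, L' j = L (i + t * (j - i')) := fun j => by simpa using congrFun e1 (j - i')
  have e3 : i + t * (k' - i') = k := (hk _).1 (e2 k' ▸ hk'.mem)
  have e4 : φ (Tr L' 1) = t • φ (Tr L 1) := sub_eq_zero.1 (H.nd _ fun w => by
    obtain ⟨a, ha, rfl⟩ := H.surj w
    obtain ⟨s, hs'⟩ := h.exists_sh h.nox ha hL
    rw [H.hs, map_sub, map_smul, H.eq a ha _ (hL.tr_mem 1), H.eq a ha _ (hL'.tr_mem 1),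
      h.bf_tr h.nox hf hs ha hL hs', h.bf_tr h.nox hf hs ha hL' (t := t * s) fun j => by
        rw [e2, e2, hs']; congr 1; clear * - t0; revert i i' t s j; decide +kernel]
    simp)
  rw [e4, ← e3]
  have : t = 1 ∨ t = -1 := by clear * - t0; revert t; decide
  rcases this with rfl | rfl <;> simp

theorem rel_surj {v} (e : QX B' v = 1) : ∃ p, Rel3 D S f φ p v ∨ Rel3 D S f φ p (-v) := by
  have hf := h.sub hs
  have a : ∀ v, QX B' v = 1 → v.2.1 = 1 → ∃ p, Rel3 D S f φ p v := by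
    rintro ⟨a, b, u⟩ e rfl
    obtain ⟨g, hg, rfl⟩ := H.surj u
    rw [QX_apply, H.eq g hg g hg, h.bf_self h.nox hf hs hg] at e
    exact ⟨_, Or.inl ⟨g, hg, rfl, by rw [← e]; simp⟩⟩
  rcases z3_cases v.2.1 with c | c | c
  · obtain ⟨a, b, u⟩ := v
    obtain rfl : b = 0 := c
    obtain ⟨g, hg, rfl⟩ := H.surj u
    rw [QX_apply, H.eq g hg g hg, h.bf_self h.nox hf hs hg] at e
    obtain ⟨L, hL, e1⟩ := h.third hs (EE_conj h.toT3 hg hs) (by
      have h3 : (3 : ZMod 3) = 0 := rfl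
      rw [qE] at e; linear_combination -e - h3)
    obtain ⟨k, hk⟩ := hL.bat hs
    exact ⟨_, Or.inl (Or.inr ⟨L, hL, a + k, k, rfl, hk, by simp [(h.phi_ext hs H (hL.tr_mem 1) hg e1).2]⟩)⟩
  · exact (a v e c).imp fun _ => Or.inl
  · exact (a (-v) (by simpa using e) (by simp [c]; rfl)).imp fun _ => Or.inr

end OS

section model

open H12 L0.R3

variable {V : Type*} [AddCommGroup V] [Module (ZMod 3) V] {Q : QuadraticForm (ZMod 3) V}

theorem third_vec [FiniteDimensional (ZMod 3) V] (hQ : Nondeg Q) {u w e v : V} (hu : Q u = 1) (hw : Q w = 1)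
    (he : Q e = 1) (hv : Q v = 1) (h1 : polar Q u w ≠ 0) (h2 : polar Q u e = 0) (h3 : polar Q w e = 0)
    (h4 : polar Q u v ≠ 0) (h5 : ∀ z, Q z = 1 → polar Q u z = 0 → polar Q w z = 0 → polar Q v z = 0) :
    v ∈ Submodule.span (ZMod 3) {u, w} := by
  have z3 : (3 : ZMod 3) = 0 := rfl
  obtain ⟨a, s, a0, a1, rfl, s1, s2⟩ := exists_shift (hu ▸ one_ne_zero) (hu.trans hw.symm) h1
  obtain ⟨b, t, b0, b1, rfl, t1, t2⟩ := exists_shift (hu ▸ one_ne_zero) (hu.trans hv.symm) h4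
  simp only [polar_add_left, B_smul_left] at h3 h5
  have k : ∀ z, Q z = 1 → polar Q u z = 0 → polar Q s z = 0 → polar Q t z = 0 := fun z c1 c2 c3 => by
    simpa [c2] using h5 z c1 c2 (by simp [c2, c3])
  have es : polar Q s e = 0 := by simpa [h2] using h3
  have ts : polar Q t s = 0 := by
    have := k (e + s) (by rw [Q_add, he, s1, polar_comm, es]; ring) (by simp [h2, s2]) (by simp [es, s1])
    rwa [polar_add_right, k e he h2 es, zero_add] at this
  have m1 : u ∈ Submodule.span (ZMod 3) {u, a • u + s} := Submodule.subset_span (by simp)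
  have le : Submodule.span (ZMod 3) {u, s} ≤ Submodule.span (ZMod 3) {u, a • u + s} := by
    rw [Submodule.span_le]
    rintro _ (rfl | rfl)
    · exact m1
    · simpa using sub_mem (Submodule.subset_span (by simp) : a • u + _ ∈ _) (Submodule.smul_mem _ a m1)
  refine add_mem (Submodule.smul_mem _ _ m1) (le ?_)
  rw [← LinearMap.BilinForm.orthogonal_orthogonal (nondeg_iff.1 hQ) polarBilin_isRefl (Submodule.span _ _)]
  intro z hz
  have c1 : polar Q u z = 0 := hz u (Submodule.subset_span (by simp))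
  have c2 : polar Q s z = 0 := hz s (Submodule.subset_span (by simp))
  show polar Q z t = 0
  by_contra c
  have := k (z + ((1 - Q z) * polar Q z t) • t) (by
    rw [Q_add, Q_smul, t1, B_smul_right]
    revert c; generalize Q z = x; generalize polar Q z t = y; revert x y; decide)
    (by simp [c1, t2]) (by simp [c2, polar_comm Q s t, ts])
  rw [polar_add_right, B_smul_right, B_self, t1, polar_comm] at this
  exact c (by simpa using this)

theorem span_norm {u w v : V} (hu : Q u = 1) (hw : Q w = 1) (hv : Q v = 1) (h1 : polar Q u w ≠ 0)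
    (h : v ∈ Submodule.span (ZMod 3) {u, w}) :
    refl Q v = refl Q u ∨ refl Q v = refl Q w ∨ refl Q v = refl Q u * refl Q w * refl Q u := by
  obtain ⟨a, b, rfl⟩ := Submodule.mem_span_pair.1 h
  have e : refl Q u * refl Q w * refl Q u = refl Q (w - polar Q u w • u) := by
    have := refl_conj (refl Q u) w
    rwa [refl_inv, refl_apply, hu, inv_one, one_mul, polar_comm] at this
  rw [Q_add, Q_smul, Q_smul, B_smul_left, B_smul_right, hu, hw] at hv
  have : a = 0 ∧ b ≠ 0 ∨ b = 0 ∧ a ≠ 0 ∨ b ≠ 0 ∧ a = -(b * polar Q u w) := by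
    revert hv h1; generalize polar Q u w = c; clear * -; revert a b c; decide
  rcases this with ⟨rfl, n⟩ | ⟨rfl, n⟩ | ⟨n, rfl⟩
  · simp [refl_smul n]
  · simp [refl_smul n]
  · rw [e, ← refl_smul n (w - _)]
    refine Or.inr (Or.inr (congrArg _ ?_))
    module

theorem FP.qiso_refl3 [Finite G] [FiniteDimensional (ZMod 3) V] (h : FP D) (hQ : Nondeg Q) {x : G → V}
    (h1 : ∀ p ∈ D, Q (x p) = 1) (h2 : ∀ p ∈ D, ∀ q ∈ D, q ∈ Dc D p ↔ polar Q (x p) (x q) = 0)
    (h3 : ∀ v, Q v = 1 → ∃ p ∈ D, v = x p ∨ v = -x p) {K : Type*} [Group K] {f : K →* O Q} {T : Set K}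
    (hT : Emb Q 1 f T) : ∃ ψ, QIso D T ψ := by
  choose! ψ m e using fun p hp => hT.ex' (h1 p hp)
  have hq : T3 T := ⟨(hT.grp one_ne_zero).1.1, (hT.grp one_ne_zero).1.2, (hT.grp one_ne_zero).2.1⟩
  have inj : Set.InjOn ψ D := fun p hp q hq c => h.hW q hq p hp (Set.ext fun y => ⟨fun k => ?_, fun k => ?_⟩)
  rotate_left
  · have := (h2 q hq y k.1).1 k
    rcases (hT.eq_iff one_ne_zero (h1 q hq) (e p hp) (e q hq)).1 c with c | c <;> rw [c] at this <;>
      exact (h2 p hp y k.1).2 (by simpa using this)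
  · have := (h2 p hp y k.1).1 k
    rcases (hT.eq_iff one_ne_zero (h1 q hq) (e p hp) (e q hq)).1 c with c | c <;>
      exact (h2 q hq y k.1).2 (by simpa [c] using this)
  have cm : ∀ p ∈ D, ∀ q ∈ D, Commute (ψ p) (ψ q) ↔ Commute p q := fun p hp q hq => by
    rw [hT.comm_iff one_ne_zero (h1 p hp) (h1 q hq) (e p hp) (e q hq), ← or_assoc,
      ← hT.eq_iff one_ne_zero (h1 q hq) (e p hp) (e q hq), inj.eq_iff hp hq, ← h2 p hp q hq]
    exact ⟨by rintro (rfl | c); exacts [Commute.refl _, c.2.2], fun c => or_iff_not_imp_left.2 fun n => ⟨hq, Ne.symm n, c⟩⟩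
  refine ⟨ψ, h.q3, hq.q3, ⟨m, inj, fun a ha => ?_⟩, fun p hp q hq' => ?_⟩
  · obtain ⟨v, hv, e1⟩ := (hT.mem a).1 ha
    obtain ⟨p, hp, e2⟩ := h3 v hv
    exact ⟨p, hp, (hT.eq_iff one_ne_zero hv (e p hp) e1).2 e2⟩
  by_cases c : Commute p q
  · rw [h.q3.s_of_commute hp c, hq.q3.s_of_commute (m p hp) ((cm p hp q hq').2 c)]
  have hr := h.s_mem hp hq'
  have nc : ∀ {a b}, a ∈ D → b ∈ D → ¬ Commute a b → polar Q (x a) (x b) ≠ 0 := fun ha hb c k => c ((h2 _ ha _ hb).2 k).2.2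
  obtain ⟨y, hy, c1⟩ := h.exists_common hp hq' c
  have := span_norm (h1 p hp) (h1 q hq') (h1 _ hr) (nc hp hq' c) (third_vec hQ (h1 p hp) (h1 q hq') (h1 y hy.1) (h1 _ hr)
    (nc hp hq' c) ((h2 p hp y hy.1).1 hy) ((h2 q hq' y hy.1).1 ⟨hy.1, fun e => c (e ▸ hy.2.2), c1⟩)
    (nc hp hr (h.not_commute_s hp c)) fun z hz a1 a2 => by
      obtain ⟨w, hw, e1⟩ := h3 z hz
      have k : ∀ a, polar Q a z = 0 ↔ polar Q a (x w) = 0 := fun a => by rcases e1 with rfl | rfl <;> simp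
      rw [k] at a1 a2 ⊢
      exact (h2 _ hr w hw).1 (Dc_symm hw ((h.q3.dc w).cl _ (Dc_symm hp ((h2 p hp w hw).2 a1)) _
        (Dc_symm hq' ((h2 q hq' w hw).2 a2)))))
  rw [← e _ hr, ← e p hp, ← e q hq', ← map_mul, ← map_mul, hT.inj.eq_iff, hT.inj.eq_iff, hT.inj.eq_iff, inj.eq_iff hr hp,
    inj.eq_iff hr hq'] at this
  rcases this with a | a | a
  exacts [absurd (by rw [a]) (h.not_commute_s hp c), absurd (by rw [a]) (h.not_commute_s' hp hq' c), a]

end model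

/-- a primitive class with an affine plane and without tangent points is a class of reflections -/
theorem FP.typeO [Finite G] (h : FP D) (hZ : center G = ⊥) (hX : NoX D) (hA : ¬ NoAff D) :
    ∃ n : ℕ, 5 ≤ n ∧ ∃ Q : QuadraticForm (ZMod 3) (Fin n → ZMod 3), (polarBilin Q).Nondegenerate ∧
      ∃ e : G ≃* reflectionSubgroup (⇑Q) 1 ⧸ center (reflectionSubgroup (⇑Q) 1),
        e '' D = (QuotientGroup.mk : reflectionSubgroup (⇑Q) 1 → _) ''
          {g : reflectionSubgroup (⇑Q) 1 | (g : isometryGroup (ZMod 3) (⇑Q)) ∈ reflectionsOfNorm (⇑Q) 1} := by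
  obtain ⟨S, A, B, C, h'⟩ := h.exists_OS hX hA
  obtain ⟨f, hs⟩ := h'.nonempty
  obtain ⟨n, hn, B', φ, H⟩ := h'.exists_HE hs
  choose! x hx using fun p => h'.rel_ex hs φ (p := p)
  let e := LinearEquiv.ofFinrankEq (R := ZMod 3) (ZMod 3 × ZMod 3 × (Fin n → ZMod 3)) (Fin (n + 2) → ZMod 3)
    (by simp; ring)
  let Q : QuadraticForm (ZMod 3) (Fin (n + 2) → ZMod 3) := (QX B').comp e.symm.toLinearMap
  have q1 : ∀ v, Q (e v) = QX B' v := fun v => by simp [Q]
  have q2 : ∀ v w, polar Q (e v) (e w) = polar (QX B') v w := fun v w => by simp only [polar, ← map_add, q1]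
  have hQ : H12.Nondeg Q := fun v hv => by
    obtain ⟨v, rfl⟩ := e.surjective v
    have k := fun w => (q2 v w).symm.trans (hv (e w))
    simp only [QX_polar H.hs] at k
    rw [show v = 0 from Prod.ext (by simpa using k (0, 1, 0)) (Prod.ext (by simpa using k (1, 0, 0))
      (H.nd _ fun w => by simpa using k (0, 0, w))), map_zero]
  obtain ⟨ψ, hψ⟩ := h.qiso_refl3 hQ (x := fun p => e (x p)) (fun p hp => by rw [q1, h'.rel_q hs H (hx p hp)])
    (fun p hp q hq => by rw [q2, h'.rel_iff hs H (hx p hp) (hx q hq)]) (fun v hv => by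
      obtain ⟨v, rfl⟩ := e.surjective v
      obtain ⟨p, k | k⟩ := h'.rel_surj hs H (q1 v ▸ hv) <;> have hp := h'.rel_mem hs k <;>
        rcases h'.rel_uniq hs H (hx p hp) k with a | a
      · exact ⟨p, hp, Or.inl (by rw [a])⟩
      · exact ⟨p, hp, Or.inr (by rw [a, map_neg])⟩
      · exact ⟨p, hp, Or.inr (by rw [← a, map_neg, neg_neg])⟩
      · exact ⟨p, hp, Or.inl (by rw [neg_injective a])⟩) (L0.R3.emb_refl Q 1)
  obtain ⟨e', -, he⟩ := hψ.exists_equiv_quot h.gen (L0.R3.emb_refl Q 1).gen hZ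
  exact ⟨n + 2, by omega, Q, H12.nondeg_iff.1 hQ, e', he⟩

end H56
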