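import Mathlib
import Cfsg.Agent.Base
import Cfsg.Agent.Lib.Fischer.Orth3

/-!
# Automorphisms of order three of the orthogonal Fischer spaces over the field with three elements
-/

set_option autoImplicit false

namespace H56

open Cfsg Subgroup QuadraticMap Module H12 L0.R3

variable {G : Type*} [Group G] {G' : Type*} [Group G'] {D E : Set G}

theorem exists_isom {ι F V : Type*} [Field F] [AddCommGroup V] [Module F V] (B : LinearMap.BilinForm F V)
    (hB : ∀ v, (∀ w, B v w = 0) → v = 0) {X X' : ι → V} (h1 : Submodule.span F (Set.range X) = ⊤)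
    (h2 : Submodule.span F (Set.range X') = ⊤) (h : ∀ i j, B (X i) (X j) = B (X' i) (X' j)) :
    ∃ g : V →ₗ[F] V, (∀ i, g (X i) = X' i) ∧ ∀ u v, B (g u) (g v) = B u v := by
  obtain ⟨R, hR⟩ := (Finsupp.linearCombination F X).exists_rightInverse_of_surjective
    (by rw [Finsupp.range_linearCombination, h1])
  have hR : ∀ v, Finsupp.linearCombination F X (R v) = v := fun v => LinearMap.congr_fun hR v
  have k : ∀ c d, B (Finsupp.linearCombination F X' c) (Finsupp.linearCombination F X' d) =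
      B (Finsupp.linearCombination F X c) (Finsupp.linearCombination F X d) := fun c d => by
    simp [Finsupp.linearCombination_apply, Finsupp.sum, map_sum, LinearMap.sum_apply, h]
  refine ⟨Finsupp.linearCombination F X' ∘ₗ R, fun i => sub_eq_zero.1 (hB _ fun w => ?_), fun u v => by simp [k, hR]⟩
  obtain ⟨d, rfl⟩ : w ∈ LinearMap.range (Finsupp.linearCombination F X') := by
    rw [Finsupp.range_linearCombination, h2]; trivial
  have := k (Finsupp.single i 1) d
  simp only [Finsupp.linearCombination_single, one_smul] at this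
  simp [k, hR, this]

variable {V : Type*} [AddCommGroup V] [Module (ZMod 3) V] {Q : QuadraticForm (ZMod 3) V}

/-- linear model over the field with three elements -/
structure Mod3 (E : Set G) (Q : QuadraticForm (ZMod 3) V) (x : G → V) : Prop where
  q3 : Q3 E
  nd : Nondeg Q
  fin : 5 ≤ finrank (ZMod 3) V
  q : ∀ p ∈ E, Q (x p) = 1
  dc : ∀ p ∈ E, ∀ q ∈ E, q ∈ Dc E p ↔ polar Q (x p) (x q) = 0
  inj : ∀ p ∈ E, ∀ q ∈ E, ∀ e : ZMod 3, x p = e • x q → p = q
  surj : ∀ v, Q v = 1 → ∃ p ∈ E, ∃ e : ZMod 3, e ≠ 0 ∧ v = e • x p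
  conj : ∀ p ∈ E, ∀ q ∈ E, ∃ e : ZMod 3, e ≠ 0 ∧ x (p * q * p) = e • (x q - polar Q (x q) (x p) • x p)

theorem Mod3.comp {E' : Set G'} {x : G' → V} (h : Mod3 E' Q x) {φ : G → G'} (hφ : QIso E E' φ) :
    Mod3 E Q fun p => x (φ p) :=
  ⟨hφ.q, h.nd, h.fin, fun p hp => h.q _ (hφ.mem hp), fun p hp q hq => by
    rw [← hφ.mem_Dc hp hq, h.dc _ (hφ.mem hp) _ (hφ.mem hq)],
    fun p hp q hq e k => (hφ.eq_iff hp hq).1 (h.inj _ (hφ.mem hp) _ (hφ.mem hq) e k), fun v hv => by
      obtain ⟨p, hp, k⟩ := h.surj v hv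
      obtain ⟨p, hp', rfl⟩ := hφ.surj hp
      exact ⟨p, hp', k⟩, fun p hp q hq => by rw [hφ.map p hp q hq]; exact h.conj _ (hφ.mem hp) _ (hφ.mem hq)⟩

theorem mod3_emb {K : Type*} [Group K] {f : K →* O Q} {T : Set K} (hT : Emb Q 1 f T) (hQ : Nondeg Q)
    (hn : 5 ≤ finrank (ZMod 3) V) : ∃ x, Mod3 T Q x := by
  choose! x h1 h2 using fun p hp => (hT.mem p).1 hp
  have hq : T3 T := ⟨(hT.grp one_ne_zero).1.1, (hT.grp one_ne_zero).1.2, (hT.grp one_ne_zero).2.1⟩
  have e0 : ∀ u v : V, (v = u ∨ v = -u) → ∃ e : ZMod 3, e ≠ 0 ∧ v = e • u := by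
    rintro u v (rfl | rfl)
    exacts [⟨1, one_ne_zero, by simp⟩, ⟨-1, by decide, by simp⟩]
  refine ⟨x, hq.q3, hQ, hn, h1, fun p hp q hq => ?_, fun p hp q hq e k => ?_, fun v hv => ?_, fun p hp q hq' => ?_⟩
  · rw [mem_Dc, Ne, hT.comm_iff one_ne_zero (h1 p hp) (h1 q hq) (h2 p hp) (h2 q hq), eq_comm,
      hT.eq_iff one_ne_zero (h1 q hq) (h2 p hp) (h2 q hq)]
    refine ⟨fun k => by tauto, fun k => ⟨hq, ?_, by tauto⟩⟩
    rintro (c | c) <;> rw [c] at k <;> simp [h1 p hp, two_ne] at k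
  · apply hT.inj
    rw [h2 p hp, h2 q hq, k, refl_smul]
    rintro rfl
    simpa [k] using h1 p hp
  · obtain ⟨p, hp, k⟩ := hT.ex' hv
    exact ⟨p, hp, e0 _ _ ((hT.eq_iff one_ne_zero hv (h2 p hp) k).1 rfl)⟩
  · have := refl_conj (refl Q (x p)) (x q)
    rw [refl_inv, refl_apply, h1 p hp, inv_one, one_mul, ← h2 p hp, ← h2 q hq', ← map_mul, ← map_mul] at this
    exact e0 _ _ ((hT.eq_iff one_ne_zero (h1 _ (hq.s_mem hp hq')) this (h2 _ (hq.s_mem hp hq'))).1 rfl)

theorem FP.exists_mod3 [Finite G] (h : FP D) (hX : NoX D) (hA : ¬ NoAff D) :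
    ∃ (n : ℕ) (Q : QuadraticForm (ZMod 3) (Fin n → ZMod 3)) (x : G → _), Mod3 D Q x := by
  obtain ⟨S, A, B, C, h'⟩ := h.exists_OS hX hA
  obtain ⟨f, hs⟩ := h'.nonempty
  obtain ⟨n, hn, B', φ, H⟩ := h'.exists_HE hs
  choose! x hx using fun p => h'.rel_ex hs φ (p := p)
  let e := LinearEquiv.ofFinrankEq (R := ZMod 3) (ZMod 3 × ZMod 3 × (Fin n → ZMod 3)) (Fin (n + 2) → ZMod 3)
    (by simp; ring)
  let Q : QuadraticForm (ZMod 3) (Fin (n + 2) → ZMod 3) := (QX B').comp e.symm.toLinearMap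
  have q1 : ∀ v, Q (e v) = QX B' v := fun v => by simp [Q]
  have q2 : ∀ v w, polar Q (e v) (e w) = polar (QX B') v w := fun v w => by simp only [polar, ← map_add, q1]
  have hQ : H12.Nondeg Q := fun v hv => by
    obtain ⟨v, rfl⟩ := e.surjective v
    have k := fun w => (q2 v w).symm.trans (hv (e w))
    simp only [QX_polar H.hs] at k
    rw [show v = 0 from Prod.ext (by simpa using k (0, 1, 0)) (Prod.ext (by simpa using k (1, 0, 0))
      (H.nd _ fun w => by simpa using k (0, 0, w))), map_zero]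
  obtain ⟨ψ, hψ⟩ := h.qiso_refl3 hQ (x := fun p => e (x p)) (fun p hp => by rw [q1, h'.rel_q hs H (hx p hp)])
    (fun p hp q hq => by rw [q2, h'.rel_iff hs H (hx p hp) (hx q hq)]) (fun v hv => by
      obtain ⟨v, rfl⟩ := e.surjective v
      obtain ⟨p, k | k⟩ := h'.rel_surj hs H (q1 v ▸ hv) <;> have hp := h'.rel_mem hs k <;>
        rcases h'.rel_uniq hs H (hx p hp) k with a | a
      · exact ⟨p, hp, Or.inl (by rw [a])⟩
      · exact ⟨p, hp, Or.inr (by rw [a, map_neg])⟩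
      · exact ⟨p, hp, Or.inr (by rw [← a, map_neg, neg_neg])⟩
      · exact ⟨p, hp, Or.inl (by rw [neg_injective a])⟩) (L0.R3.emb_refl Q 1)
  obtain ⟨y, hy⟩ := mod3_emb (emb_refl Q 1) hQ (by simp; omega)
  exact ⟨_, Q, _, hy.comp hψ⟩

theorem sq3 {e : ZMod 3} (he : e ≠ 0) : e * e = 1 := by revert e; decide

namespace Mod3

variable [FiniteDimensional (ZMod 3) V] {x : G → V} (h : Mod3 E Q x)
include h

omit [FiniteDimensional (ZMod 3) V] in
theorem nc {p q : G} (hp : p ∈ E) (hq : q ∈ E) (c : ¬ Commute p q) : polar Q (x p) (x q) ≠ 0 :=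
  fun k => c ((h.dc p hp q hq).2 k).2.2

theorem span_pts {W : Submodule (ZMod 3) V} (hW : ∀ p ∈ E, x p ∈ W) : W = ⊤ := by
  have k1 : ∀ v, Q v = 1 → v ∈ W := fun v hv => by
    obtain ⟨p, hp, e, -, rfl⟩ := h.surj v hv
    exact W.smul_mem _ (hW p hp)
  have k2 : ∀ v, Q v ≠ 0 → v ∈ W := fun v hv => by
    rcases z3 (Q v) with c | c | c
    · exact absurd c hv
    · exact k1 v c
    obtain ⟨w, h1, -, h2⟩ := exists_orth_Q_eq h.nd two_ne h.fin hv (s := 0) (by simp) (-1)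
    have := neg_mem (add_mem (k1 (v + w) (by rw [Q_add, c, h1, h2]; rfl)) (k1 (v + -w) (by
      rw [Q_add, c, QuadraticMap.map_neg, polar_neg_right, h1, h2]; rfl)))
    rwa [show -(v + w + (v + -w)) = v - (3 : ZMod 3) • v by module, show (3 : ZMod 3) = 0 from rfl, zero_smul,
      sub_zero] at this
  refine eq_top_iff.2 fun v _ => by_contra fun c => ?_
  obtain ⟨u, hu⟩ := h.nd.universal (by have := h.fin; omega) 1
  have a0 : Q v = 0 := by_contra fun k => c (k2 v k)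
  have a1 : Q (v + u) = 0 := by_contra fun k => c (by simpa using sub_mem (k2 _ k) (k1 u hu))
  have a2 : Q (v + -u) = 0 := by_contra fun k => c (by simpa using add_mem (k2 _ k) (k1 u hu))
  rw [Q_add, a0, hu] at a1
  rw [Q_add, a0, QuadraticMap.map_neg, polar_neg_right, hu] at a2
  exact two_ne (by linear_combination a1 + a2)

/-- the normalised vectors -/
theorem split {u : G} (hu : u ∈ E) {p : G} (hp : p ∈ Dc E u) : ∃ s ∈ E, s ∉ Dc E u ∧ p * s * p ∉ Dc E u ∧ ¬ Commute p s := by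
  have c := (h.dc u hu p hp.1).1 hp
  obtain ⟨t, h1, h2, h3⟩ := exists_orth_Q_eq h.nd two_ne h.fin (h.q u hu ▸ one_ne_zero) c (-1)
  obtain ⟨s, hs, e, he, k⟩ := h.surj (x u + x p + t) (by
    rw [Q_add, Q_add, polar_add_left, h1, h2, h3, c, h.q u hu, h.q p hp.1]; rfl)
  have a1 : s ∉ Dc E u := fun k' => by
    have := congrArg (polar Q (x u)) k
    simp [(h.dc u hu s hs).1 k', h1, c, h.q u hu, two_ne] at this
  refine ⟨s, hs, a1, fun k' => a1 ?_, fun k' => ?_⟩
  · simpa [mul_assoc, h.q3.mul_mul hp.1, h.q3.sq p hp.1] using (h.q3.dc u).cl p hp _ k'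
  · have := congrArg (polar Q (x p)) k
    simp [(h.dc p hp.1 s hs).1 ⟨hs, fun e => a1 (e ▸ hp), k'⟩, h2, polar_comm Q (x p) (x u), c, h.q p hp.1, two_ne] at this

omit [FiniteDimensional (ZMod 3) V] in
theorem diff {u p s : G} (hu : u ∈ E) (hp : p ∈ Dc E u) (hs : s ∈ E) (h1 : s ∉ Dc E u) (h2 : ¬ Commute p s) :
    ∃ e : ZMod 3, e ≠ 0 ∧ x p = e • (polar Q (x u) (x s) • x s - polar Q (x u) (x (p * s * p)) • x (p * s * p)) := by
  obtain ⟨e, he, k⟩ := h.conj p hp.1 s hs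
  have a1 : polar Q (x u) (x s) ≠ 0 := fun c => h1 ((h.dc u hu s hs).2 c)
  have a2 := h.nc hs hp.1 fun c => h2 c.symm
  refine ⟨_, mul_ne_zero a1 a2, ?_⟩
  rw [k, B_smul_right, polar_sub_right, B_smul_right, (h.dc u hu p hp.1).1 hp]
  match_scalars
  · linear_combination (-(polar Q (x u) (x s) ^ 2 * polar Q (x s) (x p) ^ 2)) * sq3 he -
      polar Q (x s) (x p) ^ 2 * sq3 a1 - sq3 a2
  · linear_combination (polar Q (x u) (x s) ^ 2 * polar Q (x s) (x p)) * sq3 he

omit [FiniteDimensional (ZMod 3) V] in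
theorem gram {u p q : G} (hu : u ∈ E) (hp : p ∈ E) (hq : q ∈ E) (h1 : p ∉ Dc E u) (h2 : q ∉ Dc E u) :
    (polar Q (polar Q (x u) (x p) • x p) (polar Q (x u) (x q) • x q) = 0 ↔ q ∈ Dc E p) ∧
      (polar Q (polar Q (x u) (x p) • x p) (polar Q (x u) (x q) • x q) = 1 ↔ q ∈ Dc E (u * p * u)) := by
  have a1 : polar Q (x u) (x p) ≠ 0 := fun c => h1 ((h.dc u hu p hp).2 c)
  have a2 : polar Q (x u) (x q) ≠ 0 := fun c => h2 ((h.dc u hu q hq).2 c)
  obtain ⟨e, he, k⟩ := h.conj u hu p hp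
  rw [h.dc p hp q hq, h.dc _ (h.q3.cl u hu p hp) q hq, k]
  simp only [B_smul_left, B_smul_right, polar_sub_left, polar_comm Q (x p) (x u)]
  revert a1 a2 he
  generalize polar Q (x u) (x p) = a; generalize polar Q (x u) (x q) = b; generalize polar Q (x p) (x q) = c
  clear * -; revert a b c e; decide

theorem span_S {u : G} (hu : u ∈ E) : Submodule.span (ZMod 3)
    (Set.range fun s : {s | s ∈ E ∧ s ∉ Dc E u} => polar Q (x u) (x s) • x s) = ⊤ := by
  refine h.span_pts fun p hp => ?_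
  have k : ∀ s ∈ E, s ∉ Dc E u → polar Q (x u) (x s) • x s ∈ Submodule.span (ZMod 3)
      (Set.range fun s : {s | s ∈ E ∧ s ∉ Dc E u} => polar Q (x u) (x s) • x s) :=
    fun s hs n => Submodule.subset_span ⟨⟨s, hs, n⟩, rfl⟩
  by_cases c : p ∈ Dc E u
  · obtain ⟨s, hs, a1, a2, a3⟩ := h.split hu c
    obtain ⟨e, -, k'⟩ := h.diff hu c hs a1 a3
    rw [k']
    exact Submodule.smul_mem _ _ (sub_mem (k s hs a1) (k _ (h.q3.cl p hp s hs) a2))
  · have := Submodule.smul_mem _ (polar Q (x u) (x p)) (k p hp c)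
    rwa [smul_smul, sq3 fun c' => c ((h.dc u hu p hp).2 c'), one_smul] at this

theorem nonempty : ∃ u, u ∈ E := by
  obtain ⟨u, hu⟩ := h.nd.universal (by have := h.fin; omega) 1
  obtain ⟨p, hp, -⟩ := h.surj u hu
  exact ⟨p, hp⟩

theorem exists_lin {x' : G → V} (h' : Mod3 E Q x') : ∃ g : V →ₗ[ZMod 3] V, (∀ u v, polar Q (g u) (g v) = polar Q u v) ∧
    ∀ p ∈ E, ∃ e : ZMod 3, e ≠ 0 ∧ g (x p) = e • x' p := by
  obtain ⟨u, hu⟩ := h.nonempty
  obtain ⟨g, h1, h2⟩ := exists_isom (polarBilin Q) h.nd (h.span_S hu) (h'.span_S hu) fun p q => by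
    have k1 := h.gram hu p.2.1 q.2.1 p.2.2 q.2.2
    have k2 := h'.gram hu p.2.1 q.2.1 p.2.2 q.2.2
    simp only [polarBilin_apply_apply]
    rw [← k2.1, ← k2.2] at k1
    revert k1
    generalize polar Q ((_ : ZMod 3) • x p) _ = a; generalize polar Q ((_ : ZMod 3) • x' p) _ = b
    clear * -; revert a b; decide
  refine ⟨g, h2, fun p hp => ?_⟩
  by_cases c : p ∈ Dc E u
  · obtain ⟨s, hs, a1, a2, a3⟩ := h.split hu c
    obtain ⟨e, he, k⟩ := h.diff hu c hs a1 a3
    obtain ⟨e', he', k'⟩ := h'.diff hu c hs a1 a3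
    refine ⟨e * e', mul_ne_zero he he', ?_⟩
    rw [k, k', map_smul, map_sub, h1 ⟨s, hs, a1⟩, h1 ⟨_, h.q3.cl p hp s hs, a2⟩, smul_smul, mul_assoc e, sq3 he', mul_one]
  · have a1 : polar Q (x u) (x p) ≠ 0 := fun c' => c ((h.dc u hu p hp).2 c')
    have a2 : polar Q (x' u) (x' p) ≠ 0 := fun c' => c ((h'.dc u hu p hp).2 c')
    have := congrArg (polar Q (x u) (x p) • ·) (h1 ⟨p, hp, c⟩)
    simp only [map_smul, smul_smul, sq3 a1, one_smul] at this
    exact ⟨_, mul_ne_zero a1 a2, this⟩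

theorem exists_cube {σ : G → G} (hσ : QIso E E σ) (h3 : ∀ p ∈ E, σ (σ (σ p)) = p) :
    ∃ g : V →ₗ[ZMod 3] V, (∀ u v, polar Q (g u) (g v) = polar Q u v) ∧ (∀ v, g (g (g v)) = v) ∧
      ∀ p ∈ E, ∃ e : ZMod 3, e ≠ 0 ∧ g (x p) = e • x (σ p) := by
  obtain ⟨g, h1, h2⟩ := h.exists_lin (h.comp hσ)
  have k : ∀ p ∈ E, ∃ e : ZMod 3, e ≠ 0 ∧ g (g (g (x p))) = e • x p := fun p hp => by
    obtain ⟨a, ha, k1⟩ := h2 p hp
    obtain ⟨b, hb, k2⟩ := h2 _ (hσ.mem hp)
    obtain ⟨c, hc, k3⟩ := h2 _ (hσ.mem (hσ.mem hp))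
    exact ⟨a * b * c, mul_ne_zero (mul_ne_zero ha hb) hc, by
      simp only [k1, k2, k3, map_smul, h3 p hp, smul_smul, mul_assoc]⟩
  obtain ⟨u, hu⟩ := h.nonempty
  obtain ⟨e, he, k0⟩ := k u hu
  have k1 : ∀ v, g (g (g v)) = e • v := fun v => by
    have hv : v ∈ LinearMap.eqLocus (g ∘ₗ g ∘ₗ g) (e • LinearMap.id) := by
      refine (?_ : (⊤ : Submodule (ZMod 3) V) ≤ _) Submodule.mem_top
      rw [← h.span_S hu, Submodule.span_le]
      rintro _ ⟨⟨s, hs, n⟩, rfl⟩
      obtain ⟨e', he', k2⟩ := k s hs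
      have := (h1 _ _).trans ((h1 _ _).trans (h1 (x u) (x s)))
      rw [k0, k2, B_smul_left, B_smul_right] at this
      obtain rfl : e = e' := by
        have a1 : polar Q (x u) (x s) ≠ 0 := fun c => n ((h.dc u hu s hs).2 c)
        revert this a1; generalize polar Q (x u) (x s) = a; clear * -; revert a e e'; decide
      refine Submodule.smul_mem _ _ ?_
      simpa using k2
    simpa using hv
  refine ⟨e • g, fun u v => ?_, fun v => ?_, fun p hp => ?_⟩
  · simp only [LinearMap.smul_apply, B_smul_left, B_smul_right, h1, ← mul_assoc, sq3 he, one_mul]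
  · simp only [LinearMap.smul_apply, map_smul, k1, smul_smul, sq3 he, one_smul]
  · obtain ⟨a, ha, k2⟩ := h2 p hp
    exact ⟨_, mul_ne_zero he ha, by rw [LinearMap.smul_apply, k2, smul_smul]⟩

theorem cube {σ : G → G} (hσ : QIso E E σ) (h3 : ∀ p ∈ E, σ (σ (σ p)) = p)
    (ht : ∀ y ∈ E, σ y ∈ Dc E y ∨ ¬ Commute y (σ y) ∧ y * σ y * y = σ (σ y)) {p : G} (hp : p ∈ E) (hp' : σ p ∈ Dc E p) :
    (∀ y ∈ E, ∀ w ∈ E, ¬ Commute y (σ y) → ¬ Commute w (σ w) → ¬ Commute (y * w * y) (σ (y * w * y))) ∧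
    ∀ y ∈ E, ¬ Commute y (σ y) → ∃ y' ∈ E, ¬ Commute y y' ∧ ∀ u ∈ Dc E y, ¬ Commute u (σ u) → u ∈ Dc E y' := by
  obtain ⟨g, h1, h2, h4⟩ := h.exists_cube hσ h3
  have z3' : (3 : ZMod 3) = 0 := rfl
  let N : V →ₗ[ZMod 3] V := LinearMap.id + g + g ∘ₗ g
  have hN : ∀ v, N v = v + g v + g (g v) := fun v => rfl
  have s1 : ∀ u v, polar Q u (g (g v)) = polar Q (g u) v := fun u v => by rw [← h1, h2]
  have s2 : ∀ u v, polar Q u (N v) = polar Q (N u) v := fun u v => by
    rw [hN, hN, polar_add_right, polar_add_right, polar_add_left, polar_add_left, s1, ← h1 u (g v), s1]; ring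
  have s3 : ∀ v, N (N v) = 0 := fun v => by
    simp only [hN, map_add, h2]
    rw [show v + g v + g (g v) + (g v + g (g v) + v) + (g (g v) + v + g v) = (3 : ZMod 3) • (v + g v + g (g v)) by
      module, z3', zero_smul]
  have tX : ∀ y ∈ E, σ y ∈ Dc E y → polar Q (x y) (N (x y)) = 2 := fun y hy c => by
    obtain ⟨e, -, k⟩ := h4 y hy
    rw [hN, polar_add_right, polar_add_right, s1, polar_comm Q (g _), k, B_smul_right, (h.dc y hy _ c.1).1 c, B_self,
      h.q y hy]; ring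
  have tM : ∀ y ∈ E, ¬ Commute y (σ y) → N (x y) = 0 := fun y hy c => by
    have e0 := ((ht y hy).resolve_left fun k => c k.2.2).2
    obtain ⟨a, ha, k1⟩ := h4 y hy
    obtain ⟨b, hb, k2⟩ := h4 _ (hσ.mem hy)
    obtain ⟨e, he, k3⟩ := h.conj y hy _ (hσ.mem hy)
    have a1 := h.nc (hσ.mem hy) hy fun k => c k.symm
    have k4 : g (g (x y)) = (a * b * e) • (x (σ y) - polar Q (x (σ y)) (x y) • x y) := by
      rw [k1, map_smul, k2, ← e0, k3, smul_smul, smul_smul]
    have b1 := s1 (x y) (x y)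
    have b2 := h1 (x y) (g (x y))
    rw [k4, k1] at b1 b2
    simp only [B_smul_left, B_smul_right, polar_sub_right, B_self, h.q y hy, h.q _ (hσ.mem hy),
      polar_comm Q (x y) (x (σ y))] at b1 b2
    rw [hN, k4, k1]
    have : 1 = a * b * e * polar Q (x (σ y)) (x y) ∧ a + a * b * e = 0 := by
      revert b1 b2 a1; generalize polar Q (x (σ y)) (x y) = c; clear * - ha hb he; revert a b e c; decide
    match_scalars
    exacts [by linear_combination this.1, by linear_combination this.2]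
  have f0 := tX p hp hp'
  have q0 : Q (N (x p)) = 0 := by
    have := s2 (N (x p)) (x p)
    rw [s3, B_self, polar_zero_left] at this
    simpa [two_ne] using this
  have key : ∀ y ∈ E, ¬ Commute y (σ y) ↔ polar Q (x y) (N (x p)) = 0 := fun y hy =>
    ⟨fun c => by rw [s2, tM y hy c, polar_zero_left], fun c c' => by
      have c1 := tX y hy ((ht y hy).resolve_right fun k => k.1 c')
      obtain ⟨w, hw, e, he, k⟩ := h.surj (x y + x p + (Q (x y + x p) - 1) • N (x p)) (by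
        rw [Q_add, Q_smul, q0, B_smul_right, polar_add_left, c, f0]
        linear_combination (Q (x y + x p) - 1) * z3')
      have k1 : polar Q (e • x w) (N (e • x w)) = 1 := by
        rw [← k]
        simp only [map_add, map_smul, s3, smul_zero, add_zero, polar_add_left, polar_add_right, B_smul_left, c, c1, f0,
          s2 (N _), polar_zero_left, s2 (x p) (x y), polar_comm Q (N (x p)) (x y), mul_zero]
        decide
      rw [map_smul, B_smul_left, B_smul_right, ← mul_assoc, sq3 he, one_mul] at k1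
      rcases ht w hw with k2 | k2
      · exact absurd ((tX w hw k2).symm.trans k1) (by decide)
      · simp [tM w hw k2.1] at k1⟩
  refine ⟨fun y hy w hw c1 c2 => ?_, fun y hy c => ?_⟩
  · obtain ⟨e, -, k⟩ := h.conj y hy w hw
    rw [key _ (h.q3.cl y hy w hw), k]
    simp [(key y hy).1 c1, (key w hw).1 c2]
  · have c1 := (key y hy).1 c
    obtain ⟨w, hw, e, he, k⟩ := h.surj (x y + N (x p)) (by rw [Q_add, q0, c1, h.q y hy]; simp)
    refine ⟨w, hw, fun c2 => ?_, fun u hu c2 => (h.dc w hw u hu.1).2 ?_⟩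
    · by_cases e1 : w = y
      · subst e1
        have := congrArg (polar Q (x p)) k
        have k2 := congrArg (polar Q (x w)) k
        simp only [polar_add_right, B_smul_right, f0, c1, B_self, h.q w hw] at this k2
        obtain rfl : e = 1 := by clear * - k2; revert e; decide
        exact two_ne (by linear_combination this)
      · have := congrArg (polar Q (x y)) k
        simp [c1, h.q y hy, (h.dc y hy w hw).1 ⟨hw, e1, c2⟩, two_ne] at this
    · have := congrArg (polar Q (x u)) k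
      rw [polar_add_right, (key u hu.1).1 c2, polar_comm, (h.dc y hy u hu.1).1 hu, B_smul_right, polar_comm] at this
      simpa [he] using this

end Mod3

end H56
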