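import Mathlib
import Cfsg.Agent.Base
import Cfsg.Agent.Lib.Fischer.Mod3
import Cfsg.Agent.Lib.Fischer.XKB

/-!
# The local geometry without tangent points; planes with a tangent point
-/

set_option autoImplicit false

namespace H56

open Cfsg Subgroup Equiv

variable {G : Type*} [Group G] {G' : Type*} [Group G'] {D E : Set G}

/-- any two commuting points have a sum -/
def Par2 (E : Set G) : Prop :=
  ∀ a ∈ E, ∀ b ∈ Dc E a, ∃ c ∈ E, ∀ y ∈ E, Commute c y ↔ (Commute a y ↔ Commute b y)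

/-- any three commuting points have a sum -/
def Par3 (E : Set G) : Prop :=
  ∀ a ∈ E, ∀ b ∈ E, ∀ c ∈ E, Commute a b → Commute a c → Commute b c →
    ∃ e ∈ E, ∀ y ∈ E, Commute e y ↔ (Commute a y ↔ (Commute b y ↔ Commute c y))

namespace QIso

variable {E' : Set G'} {φ : G → G'} (h : QIso E E' φ)
include h

theorem noAff (H : NoAff E') : NoAff E := fun x hx a ha b hb h1 h2 h3 => by
  rw [← h.commute_iff hx (h.q.cl a ha b hb), h.map a ha b hb]
  exact H _ (h.mem hx) _ (h.mem ha) _ (h.mem hb) (by rwa [h.commute_iff hx ha]) (by rwa [h.commute_iff hx hb])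
    (by rwa [h.commute_iff ha hb])

theorem noClaw (H : NoClaw E') : NoClaw E := fun x hx a ha b hb c hc h1 h2 h3 h4 h5 h6 => by
  rw [← h.eq_iff ha hb, ← h.eq_iff ha hc, ← h.eq_iff hb hc]
  exact H _ (h.mem hx) _ (h.mem ha) _ (h.mem hb) _ (h.mem hc) (by rwa [h.commute_iff hx ha])
    (by rwa [h.commute_iff hx hb]) (by rwa [h.commute_iff hx hc]) (by rwa [h.commute_iff ha hb])
    (by rwa [h.commute_iff ha hc]) (by rwa [h.commute_iff hb hc])

theorem par2 (H : Par2 E') : Par2 E := fun a ha b hb => by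
  obtain ⟨c, hc, k⟩ := H _ (h.mem ha) _ ((h.mem_Dc ha hb.1).2 hb)
  obtain ⟨c, hc', rfl⟩ := h.surj hc
  exact ⟨c, hc', fun y hy => by
    rw [← h.commute_iff hc' hy, k _ (h.mem hy), h.commute_iff ha hy, h.commute_iff hb.1 hy]⟩

theorem par3 (H : Par3 E') : Par3 E := fun a ha b hb c hc h1 h2 h3 => by
  obtain ⟨e, he, k⟩ := H _ (h.mem ha) _ (h.mem hb) _ (h.mem hc) (by rwa [h.commute_iff ha hb])
    (by rwa [h.commute_iff ha hc]) (by rwa [h.commute_iff hb hc])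
  obtain ⟨e, he', rfl⟩ := h.surj he
  exact ⟨e, he', fun y hy => by
    rw [← h.commute_iff he' hy, k _ (h.mem hy), h.commute_iff ha hy, h.commute_iff hb hy, h.commute_iff hc hy]⟩

theorem plane {P : ZMod 3 × ZMod 3 → G} (hP : Plane E P) : Plane E' fun u => φ (P u) :=
  ⟨fun u => h.mem (hP.mem u), fun u v => by rw [← h.map _ (hP.mem u) _ (hP.mem v), hP.refl],
    fun u v n => by rw [h.commute_iff (hP.mem u) (hP.mem v)]; exact hP.nc u v n⟩

theorem noX (H : NoX E') : NoX E := fun P hP p hp => by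
  obtain ⟨a, b, c, k⟩ := H _ (h.plane hP) _ (h.mem hp)
  exact ⟨a, b, c, fun u => by rw [← h.mem_Dc hp (hP.mem u), k]⟩

end QIso

theorem noX_of_noAff (h : NoAff E) : NoX E := fun P hP =>
  absurd (hP.aff (u := (0, 0)) (v := (1, 0)) (w := (0, 1)) (by decide) (by decide) (by decide) (by decide))
    (noAff_iff.1 h _ (hP.mem _) _ (hP.mem _) _ (hP.mem _))

theorem perm5_noAff_noClaw {φ : Perm (Fin 5) ≃* G} (hφ : ∀ σ, φ σ ∈ D ↔ σ.IsSwap) : NoAff D ∧ NoClaw D := by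
  have k : ∀ {y}, y ∈ D → ∃ i j, i < j ∧ φ (swap i j) = y := fun {y} hy => by
    obtain ⟨y, rfl⟩ := φ.surjective y
    obtain ⟨i, j, hij, rfl⟩ := (hφ y).1 hy
    rcases hij.lt_or_gt with c | c
    exacts [⟨i, j, c, rfl⟩, ⟨j, i, c, by rw [swap_comm]⟩]
  have cm : ∀ {a b}, Commute (φ a) (φ b) ↔ a * b = b * a := ⟨fun c => c.of_map φ.injective, fun c => Commute.map c φ⟩
  refine ⟨fun x hx a ha b hb => ?_, fun x _ a ha b hb c hc _ _ _ => ?_⟩
  · obtain ⟨i, j, h1, rfl⟩ := k hx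
    obtain ⟨i', j', h2, rfl⟩ := k ha
    obtain ⟨i'', j'', h3, rfl⟩ := k hb
    simp only [← map_mul, cm]
    clear * - h1 h2 h3; revert i'' j''; revert i' j'; revert i j; decide +kernel
  · obtain ⟨i, j, h1, rfl⟩ := k ha
    obtain ⟨i', j', h2, rfl⟩ := k hb
    obtain ⟨i'', j'', h3, rfl⟩ := k hc
    simp only [cm, φ.injective.eq_iff]
    clear * - h1 h2 h3; revert i'' j''; revert i' j'; revert i j; decide +kernel

namespace FP

variable [Finite G] (h : FP D)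
include h

theorem par2 (hZ : center G = ⊥) (hn : NoAff D) (hV : ¬ LocV D) : Par2 D := by
  obtain ⟨m, e, he⟩ := h.exists_sp hZ hn hV
  refine (he ▸ QIso.of_equiv h.q3 e).par2 fun a ha b hb => ?_
  obtain ⟨u, hu, rfl⟩ := mem_TSp.1 ha
  obtain ⟨v, hv, rfl⟩ := mem_TSp.1 hb.1
  refine ⟨_, mem_TSp.2 ⟨u + v, fun c => hb.2.1 ?_, rfl⟩, fun y hy => ?_⟩
  · rw [eq_neg_of_add_eq_zero_left c, v2_neg]
  · obtain ⟨w, hw, rfl⟩ := mem_TSp.1 hy
    simp only [sp_commute_iff hw, H11.Sp.form_add_right]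
    generalize sympForm m (ZMod 2) w u = s; generalize sympForm m (ZMod 2) w v = t; revert s t; decide

theorem par3 (hn : NoAff D) (hV : LocV D) (hW : LocW D) (hc : ¬ NoClaw D) : Par3 D := by
  simp only [NoClaw] at hc
  push Not at hc
  obtain ⟨x, hx, a, ha, b, hb, c, hc, h1, h2, h3, h4, h5, h6, n1, n2, n3⟩ := hc
  obtain ⟨n, B, φ, he⟩ := h.emb2 hn
  have k1 : φ a + φ b + φ c ∈ φ '' D := by
    have m1 := h.s_mem ha hx
    have c1 : ¬ Commute b (a * x * a) := fun c => h2 ((h.q3.commute_s_of_commute ha h4).1 c.symm)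
    have m2 := h.s_mem hb m1
    have c2 : ¬ Commute c (b * (a * x * a) * b) := fun c =>
      h3 ((h.q3.commute_s_of_commute ha h5).1 ((h.q3.commute_s_of_commute hb h6).1 c.symm))
    have m3 := h.s_mem hc m2
    have e3 : φ (c * (b * (a * x * a) * b) * c) = φ a + φ b + φ c + φ x := by
      rw [he.add hc m2 c2, he.add hb m1 c1, he.add ha hx fun c => h1 c.symm]; abel
    refine ⟨_, h.s_mem hx m3, ?_⟩
    rw [he.conj x hx _ m3, e3]
    simp only [map_add, LinearMap.add_apply, he.alt, he.nc ha hx fun c => h1 c.symm, he.nc hb hx fun c => h2 c.symm,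
      he.nc hc hx fun c => h3 c.symm]
    rw [show (1 + 1 + 1 + 0 : ZMod 2) = 1 by decide, one_smul, add_assoc, v2_add_self, add_zero]
  intro a' ha' b' hb' c' hc' c1 c2 c3
  by_cases e1 : b' = a'
  · exact ⟨c', hc', fun y _ => by rw [e1]; tauto⟩
  by_cases e2 : c' = a'
  · exact ⟨b', hb', fun y _ => by rw [e2]; tauto⟩
  by_cases e3 : c' = b'
  · exact ⟨a', ha', fun y _ => by rw [e3]; tauto⟩
  obtain ⟨g, rfl, rfl, rfl⟩ := h.triple_commute hV hW ha ⟨hb, n1.symm, h4⟩ ⟨⟨hc, n2.symm, h5⟩, n3.symm, h6⟩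
    ha' ⟨hb', e1, c1⟩ ⟨⟨hc', e2, c2⟩, e3, c3⟩
  obtain ⟨e, he', k1⟩ := k1
  refine ⟨_, h.conj g e he', fun y hy => ?_⟩
  obtain ⟨y, rfl⟩ : ∃ y', y = g * y' * g⁻¹ := ⟨g⁻¹ * y * g, by group⟩
  have hy' : y ∈ D := by simpa [mul_assoc] using h.conj g⁻¹ _ hy
  simp only [commute_conj_iff]
  rw [← he.comm e he' y hy', ← he.comm a ha y hy', ← he.comm b hb y hy', ← he.comm c hc y hy', k1]
  simp only [map_add, LinearMap.add_apply]
  generalize B (φ a) (φ y) = s; generalize B (φ b) (φ y) = t; generalize B (φ c) (φ y) = r; revert s t r; decide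

theorem nox_cases (hZ : center G = ⊥) (hX : NoX D) : (NoAff D ∧ NoClaw D) ∨ (NoAff D ∧ Par2 D) ∨ Par3 D ∨
    ∃ (n : ℕ) (Q : QuadraticForm (ZMod 3) (Fin n → ZMod 3)) (x : G → _), Mod3 D Q x := by
  by_cases hn : NoAff D
  swap
  · exact Or.inr (Or.inr (Or.inr (h.exists_mod3 hX hn)))
  by_cases hc : NoClaw D
  · exact Or.inl ⟨hn, hc⟩
  by_cases hV : LocV D
  · rcases h.locW_or with hW | ⟨φ, hφ⟩
    · exact Or.inr (Or.inr (Or.inl (h.par3 hn hV hW hc)))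
    · exact absurd (perm5_noAff_noClaw hφ).2 hc
  · exact Or.inr (Or.inl ⟨hn, h.par2 hZ hn hV⟩)

theorem qiso_loc {d e : G} (hd : d ∈ D) (he : e ∈ D) : ∃ φ, QIso (Dc D e) (Dq D d) φ := by
  obtain ⟨g, rfl⟩ := h.trans e he d hd
  exact ⟨_, (h.qiso_Dc_conj g e).trans (h.qiso hd)⟩

theorem loc_cases (hV : LocV D) (hW : LocW D) (hX : ∀ d ∈ D, NoX (Dc D d)) {x : G} (hx : x ∈ D) :
    (∀ d ∈ D, NoAff (Dc D d) ∧ NoClaw (Dc D d)) ∨ (∀ d ∈ D, NoAff (Dc D d) ∧ Par2 (Dc D d)) ∨ Par3 (Dc D x) ∨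
    ∃ (n : ℕ) (Q : QuadraticForm (ZMod 3) (Fin n → ZMod 3)) (f : G → _), Mod3 (Dc D x) Q f := by
  rcases (h.fp_loc hV hW hx).nox_cases (h.center_LQ hx) ((h.qiso hx).symm.noX (hX x hx)) with k | k | k | ⟨n, Q, f, k⟩
  · refine Or.inl fun d hd => ?_
    obtain ⟨φ, hφ⟩ := h.qiso_loc hx hd
    exact ⟨hφ.noAff k.1, hφ.noClaw k.2⟩
  · refine Or.inr (Or.inl fun d hd => ?_)
    obtain ⟨φ, hφ⟩ := h.qiso_loc hx hd
    exact ⟨hφ.noAff k.1, hφ.par2 k.2⟩
  · exact Or.inr (Or.inr (Or.inl ((h.qiso hx).par3 k)))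
  · exact Or.inr (Or.inr (Or.inr ⟨n, Q, _, k.comp (h.qiso hx)⟩))

theorem loc_eq (hV : LocV D) (hW : LocW D) {x y c : G} (hx : x ∈ D) (hy : y ∈ Dc D x) (hc : c ∈ Dc D x)
    (k : ∀ u ∈ Dc D x, Commute y u → Commute c u) : c = y := by
  by_contra n
  have hi := h.qiso hx
  obtain ⟨e, he, h1, h2⟩ := (h.fp_loc hV hW hx).exists_commute_not (hi.mem hc)
    ((hi.mem_Dc hc hy).2 ⟨hy, Ne.symm n, k y hy (Commute.refl y)⟩)
  obtain ⟨e, he', rfl⟩ := hi.surj he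
  rw [hi.commute_iff hy he'] at h1
  rw [hi.commute_iff hc he'] at h2
  exact h2 (k e he' h1)

theorem loc_common (hV : LocV D) (hW : LocW D) {x a b : G} (hx : x ∈ D) (ha : a ∈ Dc D x) (hb : b ∈ Dc D x)
    (c : ¬ Commute a b) : ∃ y ∈ Dc (Dc D x) a, Commute b y := by
  have hi := h.qiso hx
  obtain ⟨e, he, h1⟩ := (h.fp_loc hV hW hx).exists_common (hi.mem ha) (hi.mem hb) (by rwa [hi.commute_iff ha hb])
  obtain ⟨e, he', rfl⟩ := hi.surj he.1
  exact ⟨e, (hi.mem_Dc ha he').1 he, (hi.commute_iff hb he').1 h1⟩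

end FP

/-- a plane with a tangent point -/
structure XC (D : Set G) (P : ZMod 3 × ZMod 3 → G) (p : G) : Prop extends Plane D P where
  pm : p ∈ Dc D (P 0)
  pn : ∀ u, u ≠ 0 → ¬ Commute p (P u)

theorem closed_cases : ∀ S : ZMod 3 × ZMod 3 → Bool, (∀ u v, S u → S v → S (-u - v)) →
    (∃ a b c, ∀ u : ZMod 3 × ZMod 3, S u ↔ a * u.1 + b * u.2 = c) ∨ ∃ v, ∀ u, S u ↔ u = v := by
  decide +kernel

theorem XC.not_noX {P : ZMod 3 × ZMod 3 → G} {p : G} (h : XC D P p) : ¬ NoX D := fun H => by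
  obtain ⟨a, b, c, k⟩ := H P h.toPlane p h.pm.1
  have : ∀ u : ZMod 3 × ZMod 3, a * u.1 + b * u.2 = c ↔ u = 0 := fun u => by
    rw [← k]
    exact ⟨fun c => by_contra fun n => h.pn u n c.2.2, fun e => e ▸ Dc_symm (h.mem 0) h.pm⟩
  clear * - this; revert a b c; decide

theorem Q3.exists_XC (h : Q3 D) (H : ¬ NoX D) : ∃ P p, XC D P p := by
  classical
  simp only [NoX] at H
  push Not at H
  obtain ⟨P, hP, p, hp, H⟩ := H
  rcases closed_cases (fun u => decide (P u ∈ Dc D p)) (fun u v h1 h2 => by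
    rw [decide_eq_true_iff] at h1 h2 ⊢
    exact hP.refl u v ▸ (h.dc p).cl _ h1 _ h2) with ⟨a, b, c, k⟩ | ⟨v, k⟩
  · exact absurd (fun u => by simpa using k u) (H a b c)
  simp only [decide_eq_true_iff] at k
  have k0 := (k v).2 rfl
  refine ⟨fun u => P (u + v), p, ⟨⟨fun u => hP.mem _, fun u w => ?_, fun u w n => hP.nc _ _ (by simpa using n)⟩,
    by simpa using Dc_symm hp k0, fun u n c => n ?_⟩⟩
  · rw [hP.refl]; congr 1; clear * -; revert u v w; decide +kernel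
  · simpa using (k _).1 ⟨hP.mem _, fun e => hP.nc _ _ (by simpa using n) (e ▸ k0.2.2), c⟩

namespace Plane

variable {P : ZMod 3 × ZMod 3 → G} (h : Plane D P)
include h

theorem all {y : G} (h0 : Commute y (P 0)) (h1 : Commute y (P (1, 0))) (h2 : Commute y (P (0, 1))) (u) :
    Commute y (P u) := by
  have a1 := h.third h0 h1
  have a2 := h.third h0 h2
  have a3 := h.third h1 h2
  have a4 := h.third h2 a1
  have : u = 0 ∨ u = (1, 0) ∨ u = (0, 1) ∨ u = -0 - (1, 0) ∨ u = -0 - (0, 1) ∨ u = -(1, 0) - (0, 1) ∨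
    u = -(0, 1) - (-0 - (1, 0)) ∨ u = -0 - (-(1, 0) - (0, 1)) ∨ u = -0 - (-(0, 1) - (-0 - (1, 0))) := by revert u; decide
  rcases this with rfl | rfl | rfl | rfl | rfl | rfl | rfl | rfl | rfl
  exacts [h0, h1, h2, a1, a2, a3, a4, h.third h0 a3, h.third h0 a4]

theorem xc {p : G} (hp : p ∈ Dc D (P 0)) (h1 : ¬ Commute p (P (1, 0))) (h2 : ¬ Commute p (P (0, 1)))
    (h3 : ¬ Commute p (P (2, 2))) (h4 : ¬ Commute p (P (1, 2))) : XC D P p := by
  refine ⟨h, hp, fun u n c => ?_⟩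
  have c' := h.third hp.2.2.symm c
  have : u = (1, 0) ∨ u = (0, 1) ∨ u = (2, 2) ∨ u = (1, 2) ∨ -0 - u = (1, 0) ∨ -0 - u = (0, 1) ∨ -0 - u = (2, 2) ∨
    -0 - u = (1, 2) := by clear * - n; revert u; decide
  rcases this with e | e | e | e | e | e | e | e
  exacts [h1 (e ▸ c), h2 (e ▸ c), h3 (e ▸ c), h4 (e ▸ c), h1 (e ▸ c'), h2 (e ▸ c'), h3 (e ▸ c'), h4 (e ▸ c')]

end Plane

end H56
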