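import Mathlib
import Cfsg.Agent.Base
import Cfsg.Agent.Lib.Fischer.XLoc

/-!
# A tangent point forces a tangent point in the local geometry
-/

set_option autoImplicit false

namespace H56

open Cfsg Subgroup

variable {G : Type*} [Group G] {D : Set G}

/-- the centre of the group of a plane -/
def zP (P : ZMod 3 × ZMod 3 → G) : G := P 0 * P (1, 0) * P (0, 1) * P 0 * P (1, 0) * P (0, 1)

/-- representatives of the lines through the origin -/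
def dirs : Fin 4 → ZMod 3 × ZMod 3 := ![(1, 0), (0, 1), (2, 2), (1, 2)]

namespace Plane

variable {P : ZMod 3 × ZMod 3 → G} (h : Plane D P) (hq : Q3 D)
include h hq

theorem k1 : (∀ u, Commute (zP P) (P u)) ∧ zP P * zP P * zP P = 1 ∧
    ∀ i, ∃ w, (w.1 * (dirs i).2 ≠ w.2 * (dirs i).1) ∧ P 0 * P (dirs i) * P w * P 0 * P (dirs i) * P w = zP P := by
  obtain ⟨a1, a2, a3, a4, a5, a6, a7⟩ := hq.xk1 (h.mem 0) (h.mem (1, 0)) (h.mem (0, 1)) (h.nc _ _ (by decide))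
    (h.nc _ _ (by decide)) (h.nc _ _ (by decide)) (by rw [h.refl]; exact h.nc _ _ (by decide))
  refine ⟨h.all a1.symm a2.symm a3.symm, ?_, fun i => ?_⟩
  · rw [zP, a4]; simp only [mul_assoc, hq.mul_mul (h.mem _), hq.sq _ (h.mem _)]
  simp only [h.refl] at a5 a6 a7
  fin_cases i
  exacts [⟨(0, 1), by decide, rfl⟩, ⟨_, by decide, a5⟩, ⟨_, by decide, a6⟩, ⟨_, by decide, a7⟩]

theorem k2 {y : G} (hy : y ∈ D) (h0 : Commute y (P 0)) {i : Fin 4} (h1 : Commute y (P (dirs i)))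
    (h2 : ∀ u, u ≠ 0 → u ≠ dirs i → u ≠ -dirs i → ¬ Commute y (P u)) :
    ¬ Commute y (zP P * y * (zP P)⁻¹) ∧ y * (zP P * y * (zP P)⁻¹) * y = zP P * (zP P * y * (zP P)⁻¹) * (zP P)⁻¹ := by
  obtain ⟨w, hw, e⟩ := (h.k1 hq).2.2 i
  have n1 := h.nc 0 (dirs i) (by clear * -; revert i; decide)
  have n2 := h.nc 0 w (by clear * - hw; revert i w; decide)
  have n3 := h.nc (dirs i) w (by clear * - hw; revert i w; decide)
  have n4 : ¬ Commute (P 0) (P (dirs i) * P w * P (dirs i)) := by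
    rw [h.refl]; exact h.nc _ _ (by clear * - hw; revert i w; decide)
  have n5 := h2 w (by clear * - hw; revert i w; decide) (by clear * - hw; revert i w; decide)
    (by clear * - hw; revert i w; decide)
  have n6 : ¬ Commute y (P (dirs i) * P w * P (dirs i)) := by
    rw [h.refl]; refine h2 _ ?_ ?_ ?_ <;> (clear * - hw; revert i w; decide)
  have n7 : ¬ Commute y (P w * (P 0 * P (dirs i) * P 0) * P w) := by
    rw [h.refl, h.refl]; refine h2 _ ?_ ?_ ?_ <;> (clear * - hw; revert i w; decide)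
  have k := hq.xk2 (h.mem 0) (h.mem _) (h.mem w) hy n1 n2 n3 n4 h0 h1 n5 n6 n7
  have k' := hq.xk2c (h.mem 0) (h.mem _) (h.mem w) hy n1 n2 n3 n4 h0 h1 n5 n6 n7
  rw [e] at k k'
  refine ⟨fun c => n1 (k' ?_), k⟩
  rw [hq.s_of_commute hy c] at k
  exact conj_eq_iff.1 (conj_inj k).symm

end Plane

theorem XC.k3 {P : ZMod 3 × ZMod 3 → G} {p : G} (h : XC D P p) (hq : Q3 D) :
    zP P * p * (zP P)⁻¹ ≠ p ∧ Commute p (zP P * p * (zP P)⁻¹) ∧
      ∀ u, Commute (P 0 * p * (zP P * p * (zP P)⁻¹) * (zP P * (zP P * p * (zP P)⁻¹) * (zP P)⁻¹)) (P u) := by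
  have n4 : ¬ Commute (P 0) (P (1, 0) * P (0, 1) * P (1, 0)) := by rw [h.refl]; exact h.nc _ _ (by decide)
  have n6 : ¬ Commute p (P (1, 0) * P (0, 1) * P (1, 0)) := by rw [h.refl]; exact h.pn _ (by decide)
  have n7 : ¬ Commute p (P (0, 1) * (P 0 * P (1, 0) * P 0) * P (0, 1)) := by
    rw [h.refl, h.refl]; exact h.pn _ (by decide)
  obtain ⟨a1, a2, a3⟩ := hq.xk3 (h.mem 0) (h.mem (1, 0)) (h.mem (0, 1)) h.pm.1 (h.nc _ _ (by decide))
    (h.nc _ _ (by decide)) (h.nc _ _ (by decide)) n4 h.pm.2.2.symm (h.pn _ (by decide)) (h.pn _ (by decide)) n6 n7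
  have k := hq.xk3c (h.mem 0) (h.mem (1, 0)) (h.mem (0, 1)) h.pm.1 (h.nc _ _ (by decide))
    (h.nc _ _ (by decide)) (h.nc _ _ (by decide)) n4 h.pm.2.2.symm (h.pn _ (by decide)) (h.pn _ (by decide)) n6 n7
  refine ⟨fun e => h.pm.2.1 (k (conj_eq_iff.1 e)), a1, h.all ?_ a2.symm a3.symm⟩
  have c := ((h.k1 hq).1 0).symm
  have c1 := (c.mul_right h.pm.2.2).mul_right c.inv_right
  exact ((((Commute.refl _).mul_right h.pm.2.2).mul_right c1).mul_right ((c.mul_right c1).mul_right c.inv_right)).symm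

/-- the configuration of a minimal counterexample -/
structure XS (D : Set G) (x : G) (r : Fin 4 → G) (σ : G → G) (p : G) : Prop extends FP D where
  lv : LocV D
  lw : LocW D
  nox : ∀ d ∈ D, NoX (Dc D d)
  xm : x ∈ D
  rm : ∀ i, r i ∈ D
  xr : ∀ i, ¬ Commute x (r i)
  iso : QIso (Dc D x) (Dc D x) σ
  s3 : ∀ y, σ (σ (σ y)) = y
  sr : ∀ y i, Commute (σ y) (r i) ↔ Commute y (r i)
  disj : ∀ y ∈ Dc D x, ∀ i j, Commute y (r i) → Commute y (r j) → i = j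
  tM : ∀ y ∈ Dc D x, ∀ i, Commute y (r i) → ¬ Commute y (σ y) ∧ y * σ y * y = σ (σ y)
  tX : ∀ y ∈ Dc D x, (∀ i, ¬ Commute y (r i)) → σ y ∈ Dc (Dc D x) y
  pm : p ∈ Dc D x
  pX : ∀ i, ¬ Commute p (r i)

theorem XC.not_all {P : ZMod 3 × ZMod 3 → G} {p : G} (h : XC D P p) (hT : T3 D) (hX : ∀ d ∈ D, NoX (Dc D d))
    {d : G} (hd : d ∈ D) : ¬ ∀ u, Commute d (P u) := by
  have key : ∀ d ∈ D, (∀ u, Commute d (P u)) → ¬ Commute d p := fun d hd c c' => by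
    have m : ∀ u, P u ∈ Dc D d := fun u => ⟨h.mem u, fun e => h.nc u (u + (1, 0)) (by simp) (e ▸ c _), c u⟩
    exact XC.not_noX ⟨⟨m, h.refl, h.nc⟩, ⟨⟨h.pm.1, fun e => h.pn (1, 0) (by decide) (e ▸ c _), c'⟩, h.pm.2⟩, h.pn⟩
      (hX d hd)
  intro c
  obtain ⟨-, a2, a3⟩ := h.k3 hT.q3
  obtain ⟨b1, b2, -⟩ := h.k1 hT.q3
  have dz : Commute d (zP P) := (((((c _).mul_right (c _)).mul_right (c _)).mul_right (c _)).mul_right (c _)).mul_right (c _)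
  generalize zP P = z at *
  have n0 := key d hd c
  have n1 : ∀ q, ¬ Commute d q → ¬ Commute d (z * q * z⁻¹) := fun q n => by
    rwa [← conj_eq_iff.2 dz, commute_conj_iff]
  have e3 : z * (z * (z * p * z⁻¹) * z⁻¹) * z⁻¹ = p := by
    rw [show z * (z * (z * p * z⁻¹) * z⁻¹) * z⁻¹ = (z * z * z) * p * (z * z * z)⁻¹ by group, b2]; group
  have c2 := (commute_conj_iff z _ _).2 a2
  have c3 := (commute_conj_iff z _ _).2 c2
  rw [e3] at c3
  have m1 := hT.conj z p h.pm.1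
  have k := hT.q3.xk4 hd h.pm.1 m1 (hT.conj z _ m1) n0 (n1 _ n0) (n1 _ (n1 _ n0)) a2 c3.symm c2
  refine key _ (hT.s_mem hd (hT.conj _ d hd)) (fun u => ?_) k.symm
  generalize z * (z * p * z⁻¹) * z⁻¹ = p2 at *
  generalize z * p * z⁻¹ = p1 at *
  have e : p * p1 * p2 * d * (p * p1 * p2)⁻¹ = P 0 * (P 0 * p * p1 * p2 * d * (P 0 * p * p1 * p2)⁻¹) * (P 0)⁻¹ := by
    simp only [mul_assoc, hT.mul_mul (h.mem 0), mul_inv_rev, hT.inv_eq (h.mem 0), hT.mul_self (h.mem 0), mul_one]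
  have k1 : ∀ u, Commute (P 0 * p * p1 * p2 * d * (P 0 * p * p1 * p2)⁻¹) (P u) := fun u =>
    ((a3 u).mul_left (c u)).mul_left (a3 u).inv_left
  rw [e, conj_eq_iff.2 (k1 0)]
  exact ((c u).mul_left (k1 u)).mul_left (c u)

theorem FP.exists_XS [Finite G] (h : FP D) (hV : LocV D) (hW : LocW D) (hX : ∀ d ∈ D, NoX (Dc D d)) (H : ¬ NoX D) :
    ∃ x r σ p, XS D x r σ p := by
  classical
  obtain ⟨P, p, hP⟩ := h.q3.exists_XC H
  obtain ⟨b1, b2, -⟩ := hP.k1 h.q3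
  have n0 : ∀ i, dirs i ≠ 0 := by decide
  have key : ∀ y ∈ Dc D (P 0), ∀ i, Commute y (P (dirs i)) → ∀ u, Commute y (P u) → u = 0 ∨ u = dirs i ∨ u = -dirs i := by
    intro y hy i hi u hu
    rcases closed_cases (fun u => decide (Commute y (P u))) (fun u v h1 h2 => by
      rw [decide_eq_true_iff] at h1 h2 ⊢
      exact hP.third h1 h2) with ⟨a, b, c, k⟩ | ⟨v, k⟩ <;> simp only [decide_eq_true_iff] at k
    · have := hP.not_all h.toT3 hX hy.1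
      have h0 := hy.2.2.symm
      simp only [k] at this hi hu h0
      clear * - this hi hu h0; revert a b c i u; decide +kernel
    · exact absurd (((k _).1 hi).trans ((k _).1 hy.2.2.symm).symm) (n0 i)
  have iso := h.qiso_Dc_conj (zP P) (P 0)
  rw [conj_eq_iff.2 (b1 0).symm] at iso
  refine ⟨P 0, fun i => P (dirs i), fun y => zP P * y * (zP P)⁻¹, p, h, hV, hW, hX, hP.mem 0, fun _ => hP.mem _,
    fun i => hP.nc _ _ (n0 i).symm, iso, fun y => ?_, fun y i => ?_, fun y hy i j h1 h2 => ?_,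
    fun y hy i hi => hP.k2 h.q3 hy.1 hy.2.2.symm hi fun u a1 a2 a3 c => by have := key y hy i hi u c; tauto,
    fun y hy hi => ?_, hP.pm, fun i => hP.pn _ (n0 i)⟩
  · rw [show zP P * (zP P * (zP P * y * (zP P)⁻¹) * (zP P)⁻¹) * (zP P)⁻¹ =
      (zP P * zP P * zP P) * y * (zP P * zP P * zP P)⁻¹ by group, b2]; group
  · conv_lhs => rw [← conj_eq_iff.2 (b1 (dirs i)).symm]
    exact commute_conj_iff _ _ _
  · have := key y hy i h1 _ h2
    clear * - this; revert i j; decide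
  · obtain ⟨a1, a2, -⟩ := (hP.xc hy (hi 0) (hi 1) (hi 2) (hi 3)).k3 h.q3
    exact ⟨iso.mem hy, a1, a2⟩

namespace XS

set_option linter.unusedSectionVars false

variable [Finite G] {x p : G} {r : Fin 4 → G} {σ : G → G} (h : XS D x r σ p)
include h

theorem ex (i : Fin 4) : ∃ y ∈ Dc D x, Commute y (r i) := by
  obtain ⟨y, hy, c⟩ := h.exists_common h.xm (h.rm i) (h.xr i)
  exact ⟨y, hy, c.symm⟩

theorem cs {a b : G} (ha : a ∈ Dc D x) (hb : b ∈ Dc D x) : Commute (σ a) (σ b) ↔ Commute a b := h.iso.commute_iff ha hb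

theorem cl {a b : G} (ha : a ∈ Dc D x) {i : Fin 4} (h1 : Commute a (r i)) (h2 : Commute (a * b * a) (r i)) :
    Commute b (r i) := by rwa [h.q3.commute_s_of_commute ha.1 h1] at h2

theorem tt {y : G} (hy : y ∈ Dc D x) : σ y ∈ Dc (Dc D x) y ∨ ¬ Commute y (σ y) ∧ y * σ y * y = σ (σ y) := by
  by_cases c : ∃ i, Commute y (r i)
  · obtain ⟨i, c⟩ := c
    exact Or.inr (h.tM y hy i c)
  · exact Or.inl (h.tX y hy fun i k => c ⟨i, k⟩)

theorem rDc {y : G} (hy : y ∈ Dc D x) {i : Fin 4} (c : Commute y (r i)) : r i ∈ Dc D y :=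
  ⟨h.rm i, fun e => h.xr i (e ▸ hy.2.2), c⟩

theorem line (hn : NoAff (Dc D x)) {y w : G} (hy : y ∈ Dc D x) (hw : w ∈ Dc D x) {j : Fin 4} (c : Commute w (r j)) :
    Commute y w ∨ Commute y (σ w) ∨ Commute y (σ (σ w)) := by
  by_contra k
  push Not at k
  obtain ⟨a, b⟩ := h.tM w hw j c
  exact k.2.2 (b ▸ hn y hy w hw _ (h.iso.mem hw) k.1 k.2.1 a)

theorem caseS (H : ∀ d ∈ D, NoAff (Dc D d) ∧ NoClaw (Dc D d)) : False := by
  obtain ⟨hn, hc⟩ := H x h.xm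
  have q := h.q3.dc x
  have m := fun {y} (hy : y ∈ Dc D x) => h.iso.mem hy
  have k1 : ∀ i, ∃ y ∈ Dc D x, Commute y (r i) ∧ ¬ Commute p y := fun i => by
    by_contra c
    push Not at c
    obtain ⟨y, hy, hi⟩ := h.ex i
    have c1 := c y hy hi
    have c2 := c _ (m (m hy)) (by rwa [h.sr, h.sr])
    rw [← h.cs h.pm (m (m hy)), h.s3] at c2
    have p1 := h.tX p h.pm h.pX
    have n1 : ¬ Commute (σ p) (r i) := by rw [h.sr]; exact h.pX i
    rcases (H y hy.1).2 _ (h.rDc hy hi) x (Dc_symm h.xm hy) p ⟨h.pm.1, fun e => h.pX i (e ▸ hi), c1.symm⟩ (σ p)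
      ⟨p1.1.1, fun e => n1 (e ▸ hi), c2.symm⟩ (fun k => h.xr i k.symm) (fun k => h.pX i k.symm) (fun k => n1 k.symm)
      h.pm.2.2 p1.1.2.2 p1.2.2 with e | e | e
    exacts [h.pm.2.1 e.symm, p1.1.2.1 e.symm, p1.2.1 e.symm]
  have k2 : ∀ i j, i ≠ j → ∀ y ∈ Dc D x, ∀ w ∈ Dc D x, Commute y (r i) → Commute w (r j) → Commute y w →
      Commute y (σ w) := fun i j n y hy w hw hi hj c => by
    by_contra c1
    obtain ⟨a1, a2⟩ := h.tM y hy i hi
    obtain ⟨b1, b2⟩ := h.tM w hw j hj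
    have c2 : ¬ Commute y (σ (σ w)) := fun k => c1 (by rwa [← b2, Commute.symm_iff, q.commute_s_of_commute hw c.symm,
      Commute.symm_iff] at k)
    have c3 : ¬ Commute (σ y) w := by rwa [← h.cs hy (m (m hw)), h.s3] at c2
    have c4 : ¬ Commute (σ (σ y)) w := by rwa [← h.cs hy (m hw), ← h.cs (m hy) (m (m hw)), h.s3] at c1
    have c5 : ¬ Commute (σ (σ y)) (σ w) := by rwa [h.cs (m hy) hw]
    have c6 : ¬ Commute y (σ (σ y)) := a2 ▸ h.not_commute_s hy.1 a1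
    have i1 : Commute (σ y) (r i) := (h.sr _ _).2 hi
    have i2 : Commute (σ (σ y)) (r i) := (h.sr _ _).2 i1
    have j1 : Commute (σ w) (r j) := (h.sr _ _).2 hj
    rcases hc y hy _ (m hy) _ (m hw) _ (q.cl w hw _ (m (m hy))) a1 c1
      (by rwa [Commute.symm_iff, q.commute_s_of_commute hw c.symm, Commute.symm_iff]) ((h.cs hy hw).2 c)
      (hn _ (m hy) w hw _ (m (m hy)) c3 (by rwa [h.cs hy (m hy)]) fun k => c4 k.symm)
      (hn _ (m hw) w hw _ (m (m hy)) (fun k => b1 k.symm) (fun k => c5 k.symm) fun k => c4 k.symm) with e | e | e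
    · exact n (h.disj _ (m hy) i j i1 (e ▸ j1))
    · rw [q.br w hw _ (m (m hy)) fun k => c4 k.symm] at e
      exact n (h.disj w hw i j (h.cl (m (m hy)) i2 (e ▸ i1)) hj)
    · exact n (h.disj _ (m (m hy)) i j i2 (h.cl hw hj (e ▸ j1)))
  have k3 : ∀ i j, i ≠ j → ∀ y ∈ Dc D x, ∀ w ∈ Dc D x, Commute y (r i) → Commute w (r j) → Commute y w :=
    fun i j n y hy w hw hi hj => by
    have j1 : Commute (σ w) (r j) := (h.sr _ _).2 hj
    have := k2 i j n y hy _ (m (m hw)) hi ((h.sr _ _).2 j1)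
    rw [h.s3] at this
    rcases h.line hn hy hw hj with c | c | c
    exacts [c, this (k2 i j n y hy _ (m hw) hi j1 c), this c]
  obtain ⟨a, ha, a1, a2⟩ := k1 0
  obtain ⟨b, hb, b1, b2⟩ := k1 1
  obtain ⟨c, hc', c1, c2⟩ := k1 2
  rcases hc p h.pm a ha b hb c hc' a2 b2 c2 (k3 0 1 (by decide) a ha b hb a1 b1) (k3 0 2 (by decide) a ha c hc' a1 c1)
    (k3 1 2 (by decide) b hb c hc' b1 c1) with rfl | rfl | rfl
  exacts [absurd (h.disj a ha _ _ a1 b1) (by decide), absurd (h.disj a ha _ _ a1 c1) (by decide),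
    absurd (h.disj b hb _ _ b1 c1) (by decide)]

theorem caseO2 (H : Par3 (Dc D x)) : False := by
  have m := fun {y} (hy : y ∈ Dc D x) => h.iso.mem hy
  have p1 := (h.tX p h.pm h.pX).2.2
  have p2 := (h.cs h.pm (m h.pm)).2 p1
  have p3 := (h.cs (m h.pm) (m (m h.pm))).2 p2
  rw [h.s3] at p3
  obtain ⟨c, hc, k⟩ := H p h.pm _ (m h.pm) _ (m (m h.pm)) p1 p3.symm p2
  have : σ c = c := h.lv x h.xm _ (m hc) c hc fun y hy => by
    obtain ⟨y, hy', rfl⟩ := h.iso.surj hy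
    rw [h.cs hc hy', k y hy', k _ hy, ← h.cs h.pm hy', ← h.cs (m h.pm) hy', ← h.cs (m (m h.pm)) hy', h.s3]
    tauto
  rcases h.tt hc with e | e
  exacts [e.2.1 this, e.1 (this.symm ▸ Commute.refl c)]

theorem caseSp (H : ∀ d ∈ D, NoAff (Dc D d) ∧ Par2 (Dc D d)) : False := by
  obtain ⟨hn, h2⟩ := H x h.xm
  have m := fun {y} (hy : y ∈ Dc D x) => h.iso.mem hy
  obtain ⟨y, hy, y0⟩ := h.ex 0
  obtain ⟨v, hv, v1, yv⟩ : ∃ v ∈ Dc D x, Commute v (r 1) ∧ Commute y v := by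
    obtain ⟨w, hw, w1⟩ := h.ex 1
    rcases h.line hn hy hw w1 with c | c | c
    exacts [⟨w, hw, w1, c⟩, ⟨_, m hw, by rwa [h.sr], c⟩, ⟨_, m (m hw), by rwa [h.sr, h.sr], c⟩]
  have v0 : ¬ Commute v (r 0) := fun c => absurd (h.disj v hv _ _ c v1) (by decide)
  have hxy := Dc_symm h.xm hy
  obtain ⟨e, he, k⟩ := (H y hy.1).2 x hxy v ⟨⟨hv.1, fun e => v0 (e ▸ y0), yv⟩, hv.2⟩
  have e0 : Commute e (r 0) := (k _ (h.rDc hy y0)).2 (iff_of_false (h.xr 0) v0)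
  have he' : e ∈ Dc D x := ⟨he.1, fun c => h.xr 0 (c ▸ e0), ((k x hxy).2 (iff_of_true (Commute.refl x) hv.2.2.symm)).symm⟩
  have k1 : ∀ u ∈ Dc D x, Commute y u → (Commute e u ↔ Commute v u) := fun u hu c => by
    by_cases n : u = y
    · rw [n]; exact iff_of_true he.2.2.symm yv.symm
    · rw [k u ⟨hu.1, n, c⟩]; simp [hu.2.2]
  obtain ⟨c, hc, k2⟩ := h2 e he' v ⟨hv, fun c => v0 (c ▸ e0), (k1 v hv yv).2 (Commute.refl v)⟩
  obtain rfl : c = y := h.loc_eq h.lv h.lw h.xm hy hc fun u hu c => (k2 u hu).2 (k1 u hu c)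
  have k3 : ∀ u ∈ Dc D x, Commute e u ↔ (Commute c u ↔ Commute v u) := fun u hu => by rw [k2 u hu]; tauto
  have k4 : ∀ u ∈ Dc D x, Commute u (σ e) ↔ (Commute u (σ c) ↔ Commute u (σ v)) := fun u hu => by
    obtain ⟨u, hu', rfl⟩ := h.iso.surj hu
    rw [h.cs hu' he', h.cs hu' hy, h.cs hu' hv, Commute.symm_iff, k3 u hu', Commute.symm_iff (a := c),
      Commute.symm_iff (a := v)]
  obtain ⟨a1, -⟩ := h.tM c hy 0 y0
  obtain ⟨b1, b2⟩ := h.tM v hv 1 v1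
  refine (h.tM e he' 0 e0).1 ?_
  have : Commute v (σ c) ↔ Commute c (σ v) := by
    rw [← h.cs hv (m hy), ← h.cs (m hv) (m (m hy)), h.s3, ← b2, (h.q3.dc x).commute_s_of_commute hv yv.symm,
      Commute.symm_iff]
  rw [k3 _ (m he'), k4 c hy, k4 v hv, this]
  tauto

theorem caseO3 {V : Type*} [AddCommGroup V] [Module (ZMod 3) V] [FiniteDimensional (ZMod 3) V]
    {Q : QuadraticForm (ZMod 3) V} {f : G → V} (H : Mod3 (Dc D x) Q f) : False := by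
  have q := h.q3.dc x
  obtain ⟨k1, k2⟩ := H.cube h.iso (fun y _ => h.s3 y) (fun y hy => h.tt hy) h.pm (h.tX p h.pm h.pX)
  have k3 : ∀ y ∈ Dc D x, ∀ w ∈ Dc D x, ∀ i j, Commute y (r i) → Commute w (r j) → ∃ k, Commute (y * w * y) (r k) :=
    fun y hy w hw i j hi hj => by_contra fun c => k1 y hy w hw (h.tM y hy i hi).1 (h.tM w hw j hj).1
      (h.tX _ (q.cl y hy w hw) fun k e => c ⟨k, e⟩).2.2
  have k4 : ∀ y ∈ Dc D x, ∀ u ∈ Dc D x, ∀ i j, Commute y (r i) → Commute u (r j) → Commute y u → i = j := by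
    intro y hy u hu i j hi hj c
    by_cases n : u = y
    · exact h.disj y hy i j hi (n ▸ hj)
    obtain ⟨y', hy', a1, a2⟩ := k2 y hy (h.tM y hy i hi).1
    obtain ⟨g, g1, g2, g3⟩ := h.triple_nc h.lv h.lw h.xm hy hy' a1 hy.1 (Dc_symm h.xm hy) (h.rDc hy hi) (h.xr i)
    have : {t | t ∈ Dc D y ∧ t ∈ Dc D x ∧ t ∈ Dc D (r i)} = {t | t ∈ Dc D x ∧ t ∈ Dc D y ∧ t ∈ Dc D y'} := by
      refine Set.eq_of_subset_of_ncard_le (fun t ht => ⟨ht.2.1, ht.1, ?_⟩) (Set.ncard_le_ncard_of_injOn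
        (fun t => g * t * g⁻¹) (fun t ht => ⟨g1 ▸ h.conj_mem_Dc g ht.1, g2 ▸ h.conj_mem_Dc g ht.2.1,
          g3 ▸ h.conj_mem_Dc g ht.2.2⟩) fun _ _ _ _ e => conj_inj e)
      have := a2 t ⟨ht.2.1, ht.1.2⟩ (h.tM t ht.2.1 i ht.2.2.2.2.symm).1
      exact ⟨ht.1.1, this.2⟩
    have a3 := a2 u ⟨hu, n, c⟩ (h.tM u hu j hj).1
    have : u ∈ {t | t ∈ Dc D y ∧ t ∈ Dc D x ∧ t ∈ Dc D (r i)} := this ▸ ⟨hu, ⟨hu.1, n, c⟩, hu.1, a3.2⟩
    exact h.disj u hu i j this.2.2.2.2.symm hj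
  have k5 : ∀ y ∈ Dc D x, ∀ u ∈ Dc D x, ∀ i j, Commute y (r i) → Commute u (r j) → i ≠ j → ¬ Commute y u :=
    fun y hy u hu i j hi hj n c => n (k4 y hy u hu i j hi hj c)
  obtain ⟨y, hy, y0⟩ := h.ex 0
  obtain ⟨u, ⟨hu1, hu2⟩, u0⟩ := h.loc_common h.lv h.lw hy.1 (Dc_symm h.xm hy) (h.rDc hy y0) (h.xr 0)
  have hu : u ∈ Dc D x := ⟨hu1.1, hu2⟩
  obtain ⟨w, hw, w1⟩ := h.ex 1
  have yw := k5 y hy w hw 0 1 y0 w1 (by decide)
  have uw := k5 u hu w hw 0 1 u0.symm w1 (by decide)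
  obtain ⟨k, hk⟩ := k3 y hy w hw 0 1 y0 w1
  have n0 : k ≠ 0 := by rintro rfl; exact absurd (h.disj w hw _ _ (h.cl hy y0 hk) w1) (by decide)
  have n1 : k ≠ 1 := by
    rintro rfl; exact absurd (h.disj y hy _ _ (h.cl hw w1 (q.br y hy w hw yw ▸ hk)) y0) (by decide)
  obtain ⟨l, l0, l1, l2⟩ : ∃ l, l ≠ 0 ∧ l ≠ 1 ∧ l ≠ k := by clear * -; revert k; decide
  obtain ⟨v, hv, vl⟩ := h.ex l
  have c1 := h.s4_commute hw.1 hy.1 hu.1 (fun c => yw c.symm) (fun c => uw c.symm) hu1.2.2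
  obtain ⟨k', hk'⟩ := k3 u hu w hw 0 1 u0.symm w1
  obtain ⟨k'', hk''⟩ := k3 y hy _ (q.cl u hu w hw) 0 _ y0 hk'
  obtain rfl : k'' = 1 := k4 _ (q.cl y hy _ (q.cl u hu w hw)) w hw _ _ hk'' w1 c1.symm
  obtain rfl : k = k' := k4 _ (q.cl y hy w hw) _ (q.cl u hu w hw) _ _ hk hk' ((q.s_commute hy).2 c1)
  have c2 := k5 _ (q.cl y hy w hw) v hv _ _ hk vl l2.symm
  obtain ⟨P, hP, p0, p1, p2⟩ := q.exists_plane hy hw hv ⟨yw, k5 y hy v hv _ _ y0 vl l0.symm, k5 w hw v hv _ _ w1 vl l1.symm,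
    by rwa [← q.s_commute hw, ← q.br y hy w hw yw]⟩
  refine (hP.xc (p := u) (p0 ▸ ⟨hu, hu1.2⟩) (p1 ▸ uw) (p2 ▸ k5 u hu v hv _ _ u0.symm vl l0.symm) ?_ ?_).not_noX
    (h.nox x h.xm)
  · rw [show ((2, 2) : ZMod 3 × ZMod 3) = -(1, 0) - (0, 1) from rfl, ← hP.refl, p1, p2, ← q.s_commute hw,
      ← q.br u hu w hw uw]
    exact k5 _ (q.cl u hu w hw) v hv _ _ hk' vl l2.symm
  · rw [show ((1, 2) : ZMod 3 × ZMod 3) = -(0, 1) - (-(0, 0) - (1, 0)) from rfl, ← hP.refl, ← hP.refl, p0, p1, p2,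
      ← q.br _ (q.cl y hy w hw) v hv c2, ← q.s_commute (q.cl y hy w hw),
      show y * w * y * u * (y * w * y) = y * (w * (y * u * y) * w) * y by group, q.s_of_commute hy hu1.2.2,
      ← q.br u hu w hw uw]
    exact k5 _ (q.cl y hy _ (q.cl u hu w hw)) v hv _ _ hk'' vl l1.symm

end XS

/-- a tangent point forces a tangent point in the local geometry -/
theorem FP.lemX [Finite G] (h : FP D) (hV : LocV D) (hW : LocW D) (H : ¬ NoX D) {d : G} (hd : d ∈ D) :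
    ¬ NoX (Dq D d) := fun c => by
  have hX : ∀ e ∈ D, NoX (Dc D e) := fun e he => by
    obtain ⟨φ, hφ⟩ := h.qiso_loc hd he
    exact hφ.noX c
  obtain ⟨x, r, σ, p, k⟩ := h.exists_XS hV hW hX H
  rcases h.loc_cases hV hW hX k.xm with c | c | c | ⟨n, Q, f, c⟩
  exacts [k.caseS c, k.caseSp c, k.caseO2 c, k.caseO3 c]

end H56
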