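import Mathlib
import Cfsg.Agent.Base
import Cfsg.Agent.Lib.Fischer.XLem
import Cfsg.Agent.Lib.Fischer.U6Loc

/-!
# Classes that are locally unitary
-/

set_option autoImplicit false

namespace H56

open Cfsg Subgroup H30 H11.U

variable {G : Type*} [Group G] {G' : Type*} [Group G'] {D E S : Set G}

def xk5_cert : List (List ℕ × List (List ℕ × ℕ)) :=
  [([2,1,2,1],[([],7)]),
  ([3,1,3,1],[([],9)]),
  ([3,2,3,2],[([],11)]),
  ([1,0,1,0,1,0],[([],1)]),
  ([2,0,1,0,1,0,2,1],[([2],19),([],12)]),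
  ([3,0,1,0,1,0,3,1],[([3],19),([],14)]),
  ([2,0,2,0,2,0],[([],3)]),
  ([2,0,1,2,1,0,2,0],[([2,0],13),([],24)]),
  ([3,0,2,0,2,0,3,2],[([3],25),([],16)]),
  ([3,0,3,0,3,0],[([],5)]),
  ([3,0,1,3,1,0,3,0],[([3,0],15),([],30)]),
  ([3,0,1,2,3,2,1,0,3,0],[([3,0,1],17),([],32)]),
  ([3,0,1,2,0,1,0,2,1,0,3,2],[([3,0],21),([],28),([2,3,0],12)]),
  ([3,0,1,2,0,3,0,3,0,2,1,0,3,0],[([3,0,1,2],31),([],34)]),
  ([0,1,2,3,0,1,2,3,0,3,2,1,0,0,0,1,2,3,0,3,2,1,0,3,2,1],[([0,1,2],34),([0,1,2,0,3,0,1,2,0],16),([0,1,2,0,3,0,1],24),([0,1,2,0],22),([0,1,2,0,1,3,0,1,2,0],14),([0,1,2,0,1],36),([0,1],26),([0,1,0,2,0,1],38),([0,1,0],20),([0],18),([1,0,2,0,1,3,0,1,2,0],14),([1,0,2,0,1],36),([1,0],26),([1,2,0,1,3,0,1,2,0],16),([1,2,0,1,3,0,1],24),([1,2,0,1],22),([1,2,0],34)])]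

theorem xk5_ok : (KB.chk xk5_cert [[0,1,0,1,0,1], [0,2,0,2,0,2], [0,3,0,3,0,3], [1,2,1,2], [1,3,1,3], [2,3,2,3]] &&
    ([[0,1,2,3,0,1,2,3,0,3,2,1,0,0,0,1,2,3,0,3,2,1,0,3,2,1]] : List (List ℕ)).all fun w => (xk5_cert.map Prod.fst).contains w) = true := by decide +kernel

/-- the centre of the Weyl group of type D4 -/
theorem Q3.xk5 (h : Q3 E) {d p q r : G} (hd : d ∈ E) (hp : p ∈ E) (hq : q ∈ E) (hr : r ∈ E)
    (h1 : ¬ Commute d p)
    (h2 : ¬ Commute d q)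
    (h3 : ¬ Commute d r)
    (h4 : Commute p q)
    (h5 : Commute p r)
    (h6 : Commute q r)
    : Commute d (p * q * r * (d * ((p * q * r) * d * (p * q * r)⁻¹) * d)) := by
  have K := KB.sound' (g := fun i => [d, p, q, r].getD i 1) (KB.getD_sq (by
    simp only [List.forall_mem_cons, KB.forall_nil, and_true]; exact ⟨h.sq _ hd, h.sq _ hp, h.sq _ hq, h.sq _ hr⟩)) (by
    simp only [List.forall_mem_cons, KB.forall_nil, and_true, KB.ev_cons, KB.ev_nil, List.getD_cons_zero, List.getD_cons_succ, mul_one]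
    exact ⟨by simpa only [mul_assoc] using h.cube hd hp h1,
      by simpa only [mul_assoc] using h.cube hd hq h2,
      by simpa only [mul_assoc] using h.cube hd hr h3,
      by simpa only [mul_assoc] using h.four hp hq h4,
      by simpa only [mul_assoc] using h.four hp hr h5,
      by simpa only [mul_assoc] using h.four hq hr h6⟩) xk5_ok
  simp only [List.forall_mem_cons, KB.forall_nil, and_true, KB.ev_cons, KB.ev_nil, List.getD_cons_zero, List.getD_cons_succ, mul_one] at K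
  exact commute_of_word' (by simpa only [mul_assoc, mul_inv_rev, inv_inv, h.inv hd, h.inv hp, h.inv hq, h.inv hr] using K)


/-- the axioms of a polar space with short lines -/
structure PL (E : Set G) : Prop extends Q3 E where
  all : ∀ a ∈ E, ∀ b ∈ Dc E a, ∀ u ∈ pl E a b, ∀ v ∈ pl E a b, u ≠ v → ∀ y ∈ E, Commute u y → Commute v y →
    ∀ w ∈ pl E a b, Commute w y
  one : ∀ a ∈ E, ∀ b ∈ Dc E a, ∀ p ∈ E, ∃ x ∈ pl E a b, Commute x p
  five : ∀ a ∈ E, ∀ b ∈ Dc E a, ∀ f : Fin 6 → G, (∀ i, f i ∈ pl E a b) → ¬ Function.Injective f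

theorem QIso.mem_pl {E' : Set G'} {φ : G → G'} (h : QIso E E' φ) {a b v : G} (ha : a ∈ E) (hb : b ∈ E) (hv : v ∈ E) :
    φ v ∈ pl E' (φ a) (φ b) ↔ v ∈ pl E a b := by
  refine ⟨fun k => ⟨hv, fun y hy h1 h2 => ?_⟩, fun k => ⟨h.mem hv, fun y hy h1 h2 => ?_⟩⟩
  · exact (h.commute_iff hv hy).1 (k.2 _ (h.mem hy) ((h.commute_iff ha hy).2 h1) ((h.commute_iff hb hy).2 h2))
  · obtain ⟨y, hy', rfl⟩ := h.surj hy
    exact (h.commute_iff hv hy').2 (k.2 y hy' ((h.commute_iff ha hy').1 h1) ((h.commute_iff hb hy').1 h2))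

theorem QIso.pL {E' : Set G'} {φ : G → G'} (h : QIso E E' φ) (H : PL E') : PL E := by
  refine ⟨h.q, fun a ha b hb u hu v hv n y hy h1 h2 w hw => ?_, fun a ha b hb p hp => ?_, fun a ha b hb f hf hi => ?_⟩
  · exact (h.commute_iff hw.1 hy).1 (H.all _ (h.mem ha) _ ((h.mem_Dc ha hb.1).2 hb) _ ((h.mem_pl ha hb.1 hu.1).2 hu) _
      ((h.mem_pl ha hb.1 hv.1).2 hv) (fun e => n ((h.eq_iff hu.1 hv.1).1 e)) _ (h.mem hy)
      ((h.commute_iff hu.1 hy).2 h1) ((h.commute_iff hv.1 hy).2 h2) _ ((h.mem_pl ha hb.1 hw.1).2 hw))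
  · obtain ⟨x, hx, c⟩ := H.one _ (h.mem ha) _ ((h.mem_Dc ha hb.1).2 hb) _ (h.mem hp)
    obtain ⟨x, hx', rfl⟩ := h.surj hx.1
    exact ⟨x, (h.mem_pl ha hb.1 hx').1 hx, (h.commute_iff hx' hp).1 c⟩
  · exact H.five _ (h.mem ha) _ ((h.mem_Dc ha hb.1).2 hb) (fun i => φ (f i))
      (fun i => (h.mem_pl ha hb.1 (hf i).1).2 (hf i)) fun i j e => hi ((h.eq_iff (hf i).1 (hf j).1).1 e)

theorem FP.pL [Finite G] (h : FP D) (hV : ¬ LocV D) : PL D := by
  refine ⟨h.q3, fun a ha b hb u hu v hv n y hy h1 h2 w hw => h.all (isL_pl ha hb) hu hv n hy h1 h2 hw,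
    fun a ha b hb p hp => h.one hV (isL_pl ha hb) hp, fun a ha b hb f hf hi => ?_⟩
  obtain ⟨θ, -, -, -, -, -, -, k⟩ := h.five hV (isL_pl ha hb) (hf 0) (hf 1) (hf 2) (hf 3) (hi.ne (by decide))
    (hi.ne (by decide)) (hi.ne (by decide)) (hi.ne (by decide)) (hi.ne (by decide)) (hi.ne (by decide))
  have k4 := k _ (hf 4)
  have k5 := k _ (hf 5)
  simp only [hi.eq_iff] at k4 k5
  have : f 4 = f 5 := (k4.resolve_left (by decide) |>.resolve_left (by decide) |>.resolve_left (by decide)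
    |>.resolve_left (by decide)).trans (k5.resolve_left (by decide) |>.resolve_left (by decide)
    |>.resolve_left (by decide) |>.resolve_left (by decide)).symm
  exact absurd (hi this) (by decide)

theorem Plane.all' {P : ZMod 3 × ZMod 3 → G} (h : Plane D P) {y : G} (h0 : Commute y (P 0)) {i j : Fin 4} (n : i ≠ j)
    (h1 : Commute y (P (dirs i))) (h2 : Commute y (P (dirs j))) (u) : Commute y (P u) := by
  classical
  rcases closed_cases (fun u => decide (Commute y (P u))) (fun u v h1 h2 => by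
    rw [decide_eq_true_iff] at h1 h2 ⊢
    exact h.third h1 h2) with ⟨a, b, c, k⟩ | ⟨v, k⟩ <;> simp only [decide_eq_true_iff] at k <;> rw [k] at h0 h1 h2 ⊢
  · clear * - n h0 h1 h2; revert a b c i j u; decide +kernel
  · clear * - h0 h1; revert v i u; decide +kernel

theorem XC.line {P : ZMod 3 × ZMod 3 → G} {p : G} (h : XC E P p) (H : PL E) :
    ∃ w ∈ pl E (P 0) p, ∀ u, Commute w (P u) := by
  choose w hw k using fun i => H.one _ (h.mem 0) p h.pm _ (h.mem (dirs i))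
  have n0 : ∀ i, dirs i ≠ 0 := by decide
  have c0 : ∀ i, Commute (w i) (P 0) := fun i => (hw i).2 _ (h.mem 0) (Commute.refl _) h.pm.2.2.symm
  by_contra c
  have n1 : ∀ i j, w i = w j → i = j := fun i j e => by_contra fun n => c ⟨_, hw i, h.all' (c0 i) n (k i) (e ▸ k j)⟩
  have n2 : ∀ i, P 0 ≠ w i := fun i e => h.nc _ _ (n0 i).symm (e ▸ k i)
  have n3 : ∀ i, p ≠ w i := fun i e => h.pn _ (n0 i) (e ▸ k i)
  refine H.five _ (h.mem 0) p h.pm (Fin.cons (P 0) (Fin.cons p w)) (fun i => ?_) ?_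
  · refine Fin.cases (left_mem_pl (h.mem 0)) (fun i => Fin.cases (right_mem_pl h.pm.1) hw i) i
  · simp only [Fin.cons_injective_iff, Fin.range_cons, Set.mem_insert_iff, Set.mem_range, not_or, not_exists]
    exact ⟨⟨h.pm.2.1.symm, fun i e => n2 i e.symm⟩, fun i e => n3 i e.symm, n1⟩

theorem pl_swap {d u v t : G} (hu : u ∈ Dc D d) (hv : v ∈ Dc (Dc D d) u) (ht : t ∈ pl (Dc D d) u v) (n : t ≠ u) :
    t ∈ pl (Dc D u) d v :=
  ⟨⟨ht.1.1, n, (ht.2 u hu (Commute.refl u) hv.2.2.symm).symm⟩, fun y hy h1 h2 => by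
    by_cases e : y = d
    · rw [e]; exact ht.1.2.2.symm
    · exact ht.2 y ⟨hy.1, e, h1⟩ hy.2.2 h2⟩

/-- locally polar classes -/
structure LP (D : Set G) : Prop extends T3 D where
  loc : ∀ d ∈ D, PL (Dc D d)

namespace LP

variable (h : LP D) {d a : G} (hd : d ∈ D) (ha : a ∈ D) (hda : ¬ Commute d a)
include h hd ha hda

theorem no_three {u v t : G} (hu : u ∈ Dc D d) (hv : v ∈ Dc (Dc D d) u) (ht : t ∈ pl (Dc D d) u v) (n1 : t ≠ u)
    (n2 : t ≠ v) (c1 : Commute u a) (c2 : Commute v a) (c3 : Commute t a) : False := by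
  have k : v ∈ Dc (Dc D u) d := ⟨⟨hv.1.1, hv.2⟩, hv.1.2⟩
  exact hda ((h.loc u hu.1).all d (Dc_symm hd hu) v k t (pl_swap hu hv ht n1) v (right_mem_pl k.1) n2 a
    ⟨ha, fun e => hda (e ▸ hu.2.2), c1⟩ c3 c2 d (left_mem_pl (Dc_symm hd hu)))

theorem second {u v : G} (hu : u ∈ Dc D d) (hv : v ∈ Dc (Dc D d) u) (c1 : Commute u a) :
    ∃ t ∈ pl (Dc D d) u v, t ≠ u ∧ Commute t a := by
  have k : v ∈ Dc (Dc D u) d := ⟨⟨hv.1.1, hv.2⟩, hv.1.2⟩
  obtain ⟨t, ht, c⟩ := (h.loc u hu.1).one d (Dc_symm hd hu) v k a ⟨ha, fun e => hda (e ▸ hu.2.2), c1⟩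
  exact ⟨t, pl_swap (Dc_symm hd hu) k ht fun e => hda (e ▸ c), ht.1.2.1, c⟩

theorem nox : NoX (Dc D d ∩ Dc D a) := by
  by_contra c
  obtain ⟨P, p, k⟩ := (h.q3.inter d a).exists_XC c
  have k' : XC (Dc D d) P p := ⟨⟨fun u => (k.mem u).1, k.refl, k.nc⟩, ⟨k.pm.1.1, k.pm.2⟩, k.pn⟩
  obtain ⟨w, hw, c1⟩ := k'.line (h.loc d hd)
  obtain ⟨n, c2, -⟩ := k'.k3 (h.q3.dc d)
  have cz : ∀ y, (∀ u, Commute y (P u)) → Commute y (zP P) := fun y c =>
    (((((c _).mul_right (c _)).mul_right (c _)).mul_right (c _)).mul_right (c _)).mul_right (c _)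
  have z0 := ((k'.k1 (h.q3.dc d)).1 0).symm
  have zd := cz d fun u => (k.mem u).1.2.2
  have za := cz a fun u => (k.mem u).2.2.2
  have zw := cz w c1
  generalize zP P = z at *
  have m : ∀ g, Commute d g → ∀ y ∈ Dc D d, g * y * g⁻¹ ∈ Dc D d := fun g hg y hy => by
    simpa only [conj_eq_iff.2 hg] using h.conj_mem_Dc g hy
  refine h.no_three hd ha hda (k'.mem 0) k'.pm (t := z * p * z⁻¹) ⟨m z zd p k'.pm.1, fun y hy h1 h2 => ?_⟩
    (fun e => k'.pm.2.1 (conj_inj (e.trans (conj_eq_iff.2 z0).symm))) n (k.mem 0).2.2.2.symm k.pm.1.2.2.2.symm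
    ((za.mul_right k.pm.1.2.2.2).mul_right za.inv_right).symm
  have := (h.loc d hd).all _ (k'.mem 0) p k'.pm _ (left_mem_pl (k'.mem 0)) w hw
    (fun e => k.nc 0 (1, 0) (by decide) (e ▸ c1 _)) _ (m z⁻¹ zd.inv_right y hy)
    ((z0.inv_right.mul_right h1).mul_right z0.inv_right.inv_right)
    ((zw.inv_right.mul_right (hw.2 y hy h1 h2)).mul_right zw.inv_right.inv_right) p (right_mem_pl k'.pm.1)
  simpa [mul_assoc] using (commute_conj_iff z _ _).2 this

theorem meet {u v : G} (hu : u ∈ Dc D d) (hv : v ∈ Dc (Dc D d) u)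
    (hm : ∀ y ∈ Dc D d, Commute u y → Commute v y → y ∈ pl (Dc D d) u v)
    (h4 : ∀ b c e, ∃ f ∈ pl (Dc D d) u v, f ≠ b ∧ f ≠ c ∧ f ≠ e) : ∃ t ∈ pl (Dc D d) u v, Commute t a := by
  by_contra hc
  push Not at hc
  have H := h.loc d hd
  have cm : ∀ b ∈ pl (Dc D d) u v, ∀ c ∈ pl (Dc D d) u v, Commute b c := fun b hb c hc =>
    (isL_pl hu hv).commute hb hc
  have two : ∀ b ∈ D, ∀ c ∈ D, b ≠ c → Commute b c → Commute a (b * c) → Commute b a := fun b hb c hc n k e =>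
    ((h.commute_mul_iff hb hc ha n k).1 e).1.symm
  have key : ∀ b ∈ pl (Dc D d) u v, ∀ c ∈ pl (Dc D d) u v, b ≠ c →
      ∃ t ∈ pl (Dc D d) u v, t ≠ b ∧ t ≠ c ∧ Commute a (d * (b * c * t)) := fun b hb c hc' n => by
    have q := h.q3
    have db := hb.1.2.2
    have dc := hc'.1.2.2
    have bc := cm b hb c hc'
    have a1 : ¬ Commute a d := fun k => hda k.symm
    have a2 : ¬ Commute a b := fun k => hc b hb k.symm
    have a3 : ¬ Commute a c := fun k => hc c hc' k.symm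
    have k1 := q.xk4 ha hd hb.1.1 hc'.1.1 a1 a2 a3 db dc bc
    have k2 := q.xk4 ha hb.1.1 hd hc'.1.1 a2 a1 a3 db.symm bc dc
    have k3 := q.xk4 ha hc'.1.1 hd hb.1.1 a3 a1 a2 dc.symm bc.symm db
    rw [← db.eq] at k2
    rw [← dc.eq, mul_assoc d c, ← bc.eq, ← mul_assoc d] at k3
    have k4 := q.xk5 ha hd hb.1.1 hc'.1.1 a1 a2 a3 db dc bc
    have m := h.s_mem ha (h.conj (d * b * c) a ha)
    generalize a * (d * b * c * a * (d * b * c)⁻¹) * a = t at *
    have n1 : t ≠ d := by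
      rintro rfl
      rw [mul_assoc t, mul_assoc, ← (db.mul_right dc).eq, h.mul_mul hd] at k4
      exact hc b hb (two b hb.1.1 c hc'.1.1 n bc k4)
    have n2 : t ≠ b := by
      rintro rfl
      rw [mul_assoc d, mul_assoc, bc.eq, mul_assoc, h.mul_self hb.1.1, mul_one] at k4
      exact hda (two d hd c hc'.1.1 hc'.1.2.1.symm dc k4)
    have n3 : t ≠ c := by
      rintro rfl
      rw [mul_assoc, h.mul_self hc'.1.1, mul_one] at k4
      exact hda (two d hd b hb.1.1 hb.1.2.1.symm db k4)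
    have k5 := H.all u hu v hv b hb c hc' n t ⟨m, n1, k1⟩ k2 k3
    exact ⟨t, hm t ⟨m, n1, k1⟩ (k5 u (left_mem_pl hu)) (k5 v (right_mem_pl hv.1)), n2, n3,
      by simpa only [mul_assoc] using k4⟩
  have cmp : ∀ b ∈ pl (Dc D d) u v, ∀ c ∈ pl (Dc D d) u v, ∀ e ∈ pl (Dc D d) u v, ∀ f ∈ pl (Dc D d) u v,
      Commute a (d * (b * c * e)) → Commute a (d * (b * c * f)) → e = f := fun b hb c hc' e he f hf k1 k2 => by
    by_contra n
    have := k1.inv_right.mul_right k2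
    rw [show (d * (b * c * e))⁻¹ * (d * (b * c * f)) = e⁻¹ * f by group, h.inv_eq he.1.1] at this
    exact hc e he (two e he.1.1 f hf.1.1 n (cm e he f hf) this)
  have p1 : ∀ b ∈ pl (Dc D d) u v, ∀ c ∈ pl (Dc D d) u v, ∀ e, b * c * e = c * b * e := fun b hb c hc e => by
    rw [(cm b hb c hc).eq]
  have p2 : ∀ b, ∀ c ∈ pl (Dc D d) u v, ∀ e ∈ pl (Dc D d) u v, b * c * e = b * e * c := fun b c hc e he => by
    rw [mul_assoc, (cm c hc e he).eq, mul_assoc]
  have hb := left_mem_pl (b := v) hu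
  have hc' := right_mem_pl (a := u) hv.1
  obtain ⟨t, ht, t1, t2, t3⟩ := key u hb v hc' hv.2.1.symm
  obtain ⟨e, he, e1, e2, e3⟩ := h4 u v t
  obtain ⟨f, hf, f1, f2, f3⟩ := key u hb e he e1.symm
  obtain ⟨g, hg, g1, g2, g3⟩ := key v hc' e he e2.symm
  have f4 : f ≠ v := by rintro rfl; exact e3 (cmp u hb f hf e he t ht (p2 u f hf e he ▸ f3) t3)
  have f5 : f ≠ t := by rintro rfl; exact e2 (cmp u hb f hf e he v hc' (p2 u f hf e he ▸ f3) (p2 u f hf v hc' ▸ t3))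
  have g4 : g ≠ u := by
    rintro rfl; exact e3 (cmp v hc' g hg e he t ht (p2 v g hg e he ▸ g3) (p1 v hc' g hg t ▸ t3))
  have g5 : g ≠ t := by
    rintro rfl
    exact e1 (cmp v hc' g hg e he u hb (p2 v g hg e he ▸ g3) (by rwa [← p2 v u hb g hg, ← p1 u hb v hc']))
  have g6 : g ≠ f := by
    rintro rfl
    exact hv.2.1 (cmp e he g hg v hc' u hb (by rwa [← p2 e v hc' g hg, ← p1 v hc' e he])
      (by rwa [← p2 e u hb g hg, ← p1 u hb e he]))
  refine H.five u hu v hv ![u, v, t, e, f, g] (fun i => by fin_cases i <;> assumption) ?_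
  have n := hv.2.1
  intro i j k
  fin_cases i <;> fin_cases j <;> first | rfl | exact absurd k ‹_› | exact absurd k.symm ‹_›

end LP

/-- singular vectors -/
def Sg {n : ℕ} (v : Fin n → F4) : Prop := v ≠ 0 ∧ hermForm n F4 2 v v = 0

instance instDecSg {n : ℕ} (v : Fin n → F4) : Decidable (Sg v) := inferInstanceAs (Decidable (_ ∧ _))

/-- unitary coordinates -/
structure UC (n : ℕ) (S : Set G) (π : (Fin n → F4) → G) : Prop where
  mem : ∀ v, Sg v → π v ∈ S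
  inj : ∀ v w, Sg v → Sg w → (π v = π w ↔ ∃ c : F4, w = c • v)
  comm : ∀ v w, Sg v → Sg w → (Commute (π v) (π w) ↔ hermForm n F4 2 w v = 0)
  conj : ∀ v w, Sg v → Sg w → π v * π w * π v = π (w + hermForm n F4 2 w v • v)

/-- full unitary coordinates -/
structure UL (n : ℕ) (S : Set G) (π : (Fin n → F4) → G) : Prop extends UC n S π where
  surj : ∀ x ∈ S, ∃ v, Sg v ∧ π v = x

theorem QIso.exists_UL {n : ℕ} {ψ : G → SU n F4 2} (h : QIso S (TV n F4) ψ) : ∃ π, UL n S π := by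
  have k := h.symm
  refine ⟨fun v => Function.invFunOn ψ S (tv 2 v 1), ⟨fun v hv => k.mem (tv1_mem hv.1 hv.2), fun v w hv hw => ?_,
    fun v w hv hw => ?_, fun v w hv hw => ?_⟩, fun x hx => ?_⟩
  · rw [k.eq_iff (tv1_mem hv.1 hv.2) (tv1_mem hw.1 hw.2), tv1_eq_iff hv.2 hw.1 hw.2]
  · rw [k.commute_iff (tv1_mem hv.1 hv.2) (tv1_mem hw.1 hw.2), tv1_commute_iff hv.2 hw.1 hw.2]
  · rw [← k.map _ (tv1_mem hv.1 hv.2) _ (tv1_mem hw.1 hw.2), tv1_conj hv.2]
  · obtain ⟨_, ⟨v, h0, hv, rfl⟩, e⟩ := k.surj hx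
    exact ⟨v, ⟨h0, hv⟩, e⟩

theorem UL.comp {n : ℕ} {S' : Set G'} {π : (Fin n → F4) → G} (h : UL n S π) {φ : G → G'} (hφ : QIso S S' φ) :
    UL n S' fun v => φ (π v) :=
  ⟨⟨fun v hv => hφ.mem (h.mem v hv), fun v w hv hw => by rw [hφ.eq_iff (h.mem v hv) (h.mem w hw), h.inj v w hv hw],
    fun v w hv hw => by rw [hφ.commute_iff (h.mem v hv) (h.mem w hw), h.comm v w hv hw],
    fun v w hv hw => by rw [← hφ.map _ (h.mem v hv) _ (h.mem w hw), h.conj v w hv hw]⟩, fun x hx => by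
      obtain ⟨x, hx', rfl⟩ := hφ.surj hx
      obtain ⟨v, hv, rfl⟩ := h.surj x hx'
      exact ⟨v, hv, rfl⟩⟩

theorem UL.perp {n : ℕ} {π : (Fin n → F4) → G} (h : UL n S π) {P : ZMod 3 × ZMod 3 → G} (hP : Plane S P) {y : G}
    (hy : y ∈ S) (c : ∀ u, Commute y (P u)) : 5 ≤ n ∧ ∃ t ∈ S, ¬ Commute y t ∧ ∀ u, Commute t (P u) := by
  obtain ⟨x, hx, e0⟩ := h.surj _ (hP.mem 0)
  obtain ⟨a, ha, e1⟩ := h.surj _ (hP.mem (1, 0))
  obtain ⟨b, hb, e2⟩ := h.surj _ (hP.mem (0, 1))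
  obtain ⟨w, hw, rfl⟩ := h.surj y hy
  have hA := hP.aff (u := 0) (v := (1, 0)) (w := (0, 1)) (by decide) (by decide) (by decide) (by decide)
  rw [← e0, ← e1, ← e2] at hA
  have a1 := (h.comm x a hx ha).not.1 hA.xa
  have a2 := (h.comm x b hx hb).not.1 hA.xb
  have a3 := (h.comm a b ha hb).not.1 hA.ab
  have a4 := hA.xc
  rw [h.conj a b ha hb, h.comm _ _ hx ⟨tv1_image_ne_zero ha.2 hb.1, tv1_image_iso ha.2 hb.2⟩, form_add_left,
    form_smul_left] at a4
  have w1 := (h.comm w x hw hx).1 (e0 ▸ c 0)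
  have w2 := (h.comm w a hw ha).1 (e1 ▸ c _)
  have w3 := (h.comm w b hw hb).1 (e2 ▸ c _)
  have a1' := form_ne_zero_symm a1
  have pr : ∀ v, ∃ s t : F4, hermForm n F4 2 (v + s • x + t • a) x = 0 ∧ hermForm n F4 2 (v + s • x + t • a) a = 0 :=
    fun v => ⟨-(hermForm n F4 2 v a / hermForm n F4 2 x a), -(hermForm n F4 2 v x / hermForm n F4 2 a x), by
      simp [form_add_left, form_neg_left, form_smul_left, hx.2, a1], by
      simp [form_add_left, form_neg_left, form_smul_left, ha.2, a1']⟩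
  obtain ⟨s, t, m1, m2⟩ := pr b
  set m := b + s • x + t • a with hm
  have mr : ∀ v, hermForm n F4 2 v x = 0 → hermForm n F4 2 v a = 0 → hermForm n F4 2 v m = hermForm n F4 2 v b :=
    fun v h1 h2 => by simp [hm, form_add_right, form_smul_right, h1, h2]
  have m3 : hermForm n F4 2 m m ≠ 0 := by
    rw [mr m m1 m2]
    rw [hm] at m1 m2 ⊢
    simp only [form_add_left, form_smul_left, hx.2, ha.2, hb.2, form_swap x a, form_swap x b, form_swap a b,
      cj_apply] at m1 m2 ⊢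
    revert a1 a2 a3 a4 m1 m2
    generalize hermForm n F4 2 a x = α; generalize hermForm n F4 2 b x = β; generalize hermForm n F4 2 b a = γ
    clear * -; revert α β γ s t; decide +kernel
  have m4 : hermForm n F4 2 m w = 0 := by simp [hm, form_add_left, form_smul_left, w1, w2, w3]
  obtain ⟨v0, h0⟩ := exists_form_ne_zero 2 hw.1
  obtain ⟨s', t', v1, v2⟩ := pr v0
  set v := v0 + s' • x + t' • a - (hermForm n F4 2 (v0 + s' • x + t' • a) m / hermForm n F4 2 m m) • m with hv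
  have b1 : hermForm n F4 2 v x = 0 := by rw [hv, form_sub_left, form_smul_left, v1, m1]; simp
  have b2 : hermForm n F4 2 v a = 0 := by rw [hv, form_sub_left, form_smul_left, v2, m2]; simp
  have b3 : hermForm n F4 2 v m = 0 := by rw [hv, form_sub_left, form_smul_left]; simp [m3]
  have b4 : hermForm n F4 2 w v ≠ 0 := form_ne_zero_symm (by
    simpa [hv, form_sub_left, form_add_left, form_smul_left, m4, w1, w2] using form_ne_zero_symm h0)
  obtain ⟨r, hr⟩ := exists_add_smul_isotropic hw.2 b4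
  have w1' := form_eq_zero_symm w1
  have w2' := form_eq_zero_symm w2
  have m4' := form_eq_zero_symm m4
  have c1 : hermForm n F4 2 (v + r • w) x = 0 := by simp [form_add_left, form_smul_left, b1, w1']
  have c2 : hermForm n F4 2 (v + r • w) a = 0 := by simp [form_add_left, form_smul_left, b2, w2']
  have c3 : hermForm n F4 2 (v + r • w) m = 0 := by simp [form_add_left, form_smul_left, b3, m4']
  have c4 : hermForm n F4 2 (v + r • w) w ≠ 0 := by
    simpa [form_add_left, form_smul_left, hw.2] using form_ne_zero_symm b4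
  generalize v + r • w = z at *
  have hz : Sg z := ⟨fun e => c4 (by rw [e, form_zero_left]), hr⟩
  refine ⟨?_, _, h.mem z hz, (h.comm w z hw hz).not.2 c4, hP.all ?_ ?_ ?_⟩
  · have : LinearIndependent F4 ![x, a, m, w, z] := by
      rw [Fintype.linearIndependent_iff]
      intro g e
      have k := fun y => congrArg (fun v => hermForm n F4 2 v y) e
      simp only [Fin.sum_univ_five, Matrix.cons_val, form_add_left, form_smul_left, form_zero_left] at k
      have k1 := k a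
      have k2 := k x
      have k3 := k m
      have k4 := k z
      have k5 := k w
      simp only [hx.2, ha.2, hw.2, hz.2, m1, m2, m4, m4', w1, w2, w1', w2', c1, c2, c3, form_eq_zero_symm m1,
        form_eq_zero_symm m2, form_eq_zero_symm c1, form_eq_zero_symm c2, form_eq_zero_symm c3, mul_zero, add_zero,
        zero_add, mul_eq_zero, a1, a1', m3, c4, form_ne_zero_symm c4, or_false] at k1 k2 k3 k4 k5
      intro i; fin_cases i
      exacts [k1, k2, k3, k4, k5]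
    simpa using this.fintype_card_le_finrank
  · exact e0 ▸ ((h.comm x z hx hz).2 c1).symm
  · exact e1 ▸ ((h.comm a z ha hz).2 c2).symm
  · exact e2 ▸ ((h.comm b z hb hz).2 (mr z c1 c2 ▸ c3)).symm

/-- the standard plane -/
def pv (u : ZMod 3 × ZMod 3) : Fin 5 → F4 :=
  ![![![1, 1, 0, 0, 0], ![1, 0, 1, 0, 0], ![0, 1, 1, 0, 0]],
    ![![1, F4.w, 0, 0, 0], ![1, 0, F4.v, 0, 0], ![0, 1, F4.w, 0, 0]],
    ![![1, F4.v, 0, 0, 0], ![1, 0, F4.w, 0, 0], ![0, 1, F4.v, 0, 0]]] u.1 u.2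

theorem pv_sg : ∀ u, Sg (pv u) := by decide +kernel

/-- tangent vectors -/
def Xt (v : Fin 5 → F4) : Prop := ∃ t, (∀ u, hermForm 5 F4 2 (pv u) v = 0 ↔ u = t) ∧ ∀ c : F4, v ≠ c • pv t

instance instDecXt (v : Fin 5 → F4) : Decidable (Xt v) := inferInstanceAs (Decidable (∃ _, _))

namespace UC

variable {π : (Fin 5 → F4) → G} (h : UC 5 S π)
include h

theorem plane {T : Set G} (hT : ∀ u, π (pv u) ∈ T) : Plane T fun u => π (pv u) := by
  refine ⟨hT, fun u v => ?_, fun u v n => ?_⟩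
  · rw [h.conj _ _ (pv_sg u) (pv_sg v), h.inj _ _ ⟨tv1_image_ne_zero (pv_sg u).2 (pv_sg v).1,
      tv1_image_iso (pv_sg u).2 (pv_sg v).2⟩ (pv_sg _)]
    clear * -; revert u v; decide +kernel
  · rw [h.comm _ _ (pv_sg u) (pv_sg v)]
    clear * - n; revert u v; decide +kernel

theorem not_xt {T : Set G} (hX : NoX T) (hT : ∀ u, π (pv u) ∈ T) {v : Fin 5 → F4} (hv : Sg v) (hv' : π v ∈ T) :
    ¬ Xt v := by
  rintro ⟨t, k1, k2⟩
  obtain ⟨a, b, c, k⟩ := hX _ (h.plane hT) _ hv'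
  have : ∀ u : ZMod 3 × ZMod 3, a * u.1 + b * u.2 = c ↔ u = t := fun u => by
    rw [← k, ← k1, ← h.comm _ _ hv (pv_sg u)]
    refine ⟨fun e => e.2.2, fun e => ⟨hT u, fun e' => ?_, e⟩⟩
    obtain rfl := (k1 u).1 ((h.comm _ _ hv (pv_sg u)).1 e)
    obtain ⟨c, hc⟩ := (h.inj _ _ (pv_sg u) hv).1 e'
    exact k2 c hc
  clear * - this; revert a b c t; decide +kernel

end UC

theorem LP.not_seven (h : LP D) {e : G} {k : ℕ} {π : (Fin (k + 7) → F4) → G} (hπ : UC (k + 7) (Dc D e) π) :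
    False := by
  let u : (Fin 7 → F4) → Fin (k + 7) → F4 := fun v => Fin.append 0 v
  have hu : ∀ v w, hermForm _ F4 2 (u v) (u w) = hermForm 7 F4 2 v w := fun v w => by
    simp [hermForm, u, Fin.sum_univ_add]
  have sg : ∀ v, Sg v → Sg (u v) := fun v hv => ⟨fun e => by
    obtain ⟨w, hw⟩ := exists_form_ne_zero 2 hv.1
    exact hw (by rw [← hu, e, form_zero_left]), by rw [hu, hv.2]⟩
  let j : (Fin 5 → F4) → Fin 7 → F4 := fun v => Fin.append v (0 : Fin 2 → F4)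
  have hj : ∀ v w, hermForm 7 F4 2 (j v) w = hermForm 5 F4 2 v fun i => w (Fin.castAdd 2 i) := fun v w => by
    simp only [hermForm, j]
    rw [Fin.sum_univ_add (a := 5) (b := 2)]
    simp
  have hj' : ∀ v w, hermForm 7 F4 2 (j v) (j w) = hermForm 5 F4 2 v w := fun v w => by rw [hj]; simp [j]
  have sj : ∀ v, Sg v → Sg (j v) := fun v hv => ⟨fun e => by
    obtain ⟨w, hw⟩ := exists_form_ne_zero 2 hv.1
    exact hw (by rw [← hj', e, form_zero_left]), by rw [hj', hv.2]⟩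
  have lin : ∀ (c : F4) v w, u (j (w + c • v)) = u (j w) + c • u (j v) := fun c v w => by
    ext i
    refine Fin.addCases (fun i => by simp [u]) (fun i => ?_) i
    refine Fin.addCases (m := 5) (n := 2) (fun i => by simp [u, j]) (fun i => by simp [u, j]) i
  have lin0 : u (j 0) = 0 := by simpa using lin (-1) 0 0
  have inj : ∀ v w (c : F4), u (j w) = c • u (j v) ↔ w = c • v := fun v w c =>
    ⟨fun e => eq_of_form_eq (q := 2) fun y => by rw [← hj', ← hu, e, form_smul_left, form_smul_left, hu, hj'],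
      fun e => by simpa [e, lin0] using lin c v 0⟩
  let d : Fin 7 → F4 := ![0, 0, 0, 0, 0, 1, 1]
  let a : Fin 7 → F4 := ![0, 0, 0, 0, 0, 1, F4.w]
  have sd : Sg (u d) := sg d (by decide)
  have sa : Sg (u a) := sg a (by decide)
  have da : ¬ Commute (π (u d)) (π (u a)) := by rw [hπ.comm _ _ sd sa, hu]; decide
  have c1 : ∀ v, Sg v → Commute (π (u d)) (π (u (j v))) := fun v hv => by
    rw [hπ.comm _ _ sd (sg _ (sj v hv)), hu, hj, show (fun i => d (Fin.castAdd 2 i)) = 0 by decide, form_zero_right]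
  have c2 : ∀ v, Sg v → Commute (π (u a)) (π (u (j v))) := fun v hv => by
    rw [hπ.comm _ _ sa (sg _ (sj v hv)), hu, hj, show (fun i => a (Fin.castAdd 2 i)) = 0 by decide, form_zero_right]
  have k : UC 5 (Dc D (π (u d)) ∩ Dc D (π (u a))) fun v => π (u (j v)) :=
    ⟨fun v hv => ⟨⟨(hπ.mem _ (sg _ (sj v hv))).1, fun e => da (e ▸ c2 v hv).symm, c1 v hv⟩,
      (hπ.mem _ (sg _ (sj v hv))).1, fun e => da (e ▸ c1 v hv), c2 v hv⟩,
    fun v w hv hw => by simp only [hπ.inj _ _ (sg _ (sj v hv)) (sg _ (sj w hw)), inj],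
    fun v w hv hw => by rw [hπ.comm _ _ (sg _ (sj v hv)) (sg _ (sj w hw)), hu, hj'],
    fun v w hv hw => by rw [hπ.conj _ _ (sg _ (sj v hv)) (sg _ (sj w hw)), hu, hj', lin]⟩
  have sp : Sg (![1, 1, 0, 1, 1] : Fin 5 → F4) := by decide
  exact k.not_xt (h.nox (hπ.mem _ sd).1 (hπ.mem _ sa).1 da) (fun u => k.mem _ (pv_sg u)) sp (k.mem _ sp)
    (by decide +kernel)

theorem LP.not_five (h : LP D) (hU : ∀ d ∈ D, ∃ π, UL 5 (Dc D d) π) {d : G} (hd : d ∈ D) : False := by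
  obtain ⟨π, hπ⟩ := hU d hd
  have sw : Sg (![0, 0, 0, 1, 1] : Fin 5 → F4) := by decide
  have mw := hπ.mem _ sw
  obtain ⟨ρ, hρ⟩ := hU _ mw.1
  obtain ⟨-, a, ha, hda, ca⟩ := hρ.perp (hπ.plane fun u => ⟨(hπ.mem _ (pv_sg u)).1, by
      rw [Ne, hπ.inj _ _ (pv_sg u) sw]; clear * -; revert u; decide +kernel, by
      rw [hπ.comm _ _ sw (pv_sg u)]; clear * -; revert u; decide +kernel⟩) (Dc_symm hd mw)
    fun u => (hπ.mem _ (pv_sg u)).2.2
  have mem : ∀ v, Sg v → Commute (π v) a → π v ∈ Dc D d ∩ Dc D a := fun v hv c =>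
    ⟨hπ.mem v hv, (hπ.mem v hv).1, fun e => hda (e ▸ (hπ.mem v hv).2.2), c.symm⟩
  have nx : ∀ v, Sg v → Commute (π v) a → ¬ Xt v := fun v hv c =>
    hπ.not_xt (h.nox hd ha.1 hda) (fun u => mem _ (pv_sg u) (ca u).symm) hv (mem v hv c)
  have dc : ∀ A B, Sg A → Sg B → hermForm 5 F4 2 B A = 0 → (∀ c : F4, A ≠ c • B) → π B ∈ Dc (Dc D d) (π A) :=
    fun A B hA hB c n => ⟨hπ.mem B hB, by rw [Ne, hπ.inj _ _ hB hA]; simpa using n, (hπ.comm _ _ hA hB).2 c⟩
  have ln : ∀ A B v (s t : F4), Sg A → Sg B → Sg v → v = s • A + t • B → π v ∈ pl (Dc D d) (π A) (π B) :=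
    fun A B v s t hA hB hv e => ⟨hπ.mem v hv, fun y hy h1 h2 => by
      obtain ⟨y, hy', rfl⟩ := hπ.surj y hy
      rw [hπ.comm _ _ hA hy'] at h1
      rw [hπ.comm _ _ hB hy'] at h2
      rw [hπ.comm _ _ hv hy', e, form_add_right, form_smul_right, form_smul_right, h1, h2]; simp⟩
  have key : ∀ A B, Sg A → Sg B → hermForm 5 F4 2 B A = 0 → (∀ c : F4, A ≠ c • B) → (∀ c : F4, B ≠ c • A) →
      (∀ v, Sg v → hermForm 5 F4 2 v A = 0 → hermForm 5 F4 2 v B = 0 →
        (∃ s t : F4, v = s • A + t • B) ∧ ((∃ c : F4, v = c • A) ∨ (∃ c : F4, v = c • B) ∨ Xt v)) →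
      (∀ c : F4, Sg (A + c • B)) → (∀ c c' e : F4, A + c • B = e • (A + c' • B) → c = c') → Commute (π A) a := by
    intro A B hA hB c n n' k s4 i4
    have on : ∀ t ∈ Dc D d, Commute (π A) t → Commute (π B) t → t ∈ pl (Dc D d) (π A) (π B) ∧
        (Commute t a → t = π A ∨ t = π B) := fun t ht h1 h2 => by
      obtain ⟨v, hv, rfl⟩ := hπ.surj t ht
      obtain ⟨⟨s, t, e⟩, k'⟩ := k v hv ((hπ.comm _ _ hA hv).1 h1) ((hπ.comm _ _ hB hv).1 h2)
      refine ⟨ln A B v s t hA hB hv e, fun c => ?_⟩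
      rcases k' with k' | k' | k'
      exacts [Or.inl ((hπ.inj _ _ hA hv).2 k').symm, Or.inr ((hπ.inj _ _ hB hv).2 k').symm, absurd k' (nx v hv c)]
    have hAB := dc A B hA hB c n
    have hBA := dc B A hB hA (form_eq_zero_symm c) n'
    obtain ⟨t, ht, c1⟩ := h.meet hd ha.1 hda (hπ.mem A hA) hAB (fun y hy h1 h2 => (on y hy h1 h2).1) fun b c e => by
      classical
      by_contra k'
      push Not at k'
      have := Fintype.card_le_of_injective (fun s : F4 => (⟨π (A + s • B), by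
        have := k' _ (ln A B _ 1 s hA hB (s4 s) (by simp)); simp only [Finset.mem_insert, Finset.mem_singleton]; tauto⟩ :
          ({b, c, e} : Finset G))) fun s s' e => by
        obtain ⟨r, hr⟩ := (hπ.inj _ _ (s4 s) (s4 s')).1 (congrArg Subtype.val e)
        exact (i4 _ _ _ hr).symm
      rw [Fintype.card_coe, F4.card_eq] at this
      exact absurd (this.trans Finset.card_le_three) (by decide)
    have l := isL_pl (hπ.mem A hA) hAB
    rcases (on t ht.1 (l.commute (left_mem_pl (hπ.mem A hA)) ht) (l.commute (right_mem_pl hAB.1) ht)).2 c1 with rfl | rfl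
    · exact c1
    obtain ⟨t, ht', n1, c2⟩ := h.second hd ha.1 hda hAB.1 hBA c1
    have l' := isL_pl hAB.1 hBA
    rcases (on t ht'.1 (l'.commute (right_mem_pl hBA.1) ht') (l'.commute (left_mem_pl hAB.1) ht')).2 c2 with rfl | rfl
    exacts [c2, absurd rfl n1]
  have k1 := key ![1, 0, 0, 1, 0] ![0, 1, 0, 0, 1] (by decide) (by decide) (by decide) (by decide) (by decide)
    (by decide +kernel) (by decide) (by decide +kernel)
  have k2 := key ![1, 1, 1, 1, 0] ![1, F4.w, F4.v, 0, 1] (by decide) (by decide) (by decide) (by decide) (by decide)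
    (by decide +kernel) (by decide) (by decide +kernel)
  exact h.no_three hd ha.1 hda (hπ.mem _ (pv_sg (0, 2))) (dc _ ![1, 0, 0, 1, 0] (pv_sg _) (by decide) (by decide) (by decide))
    (ln _ _ ![1, 1, 1, 1, 0] 1 1 (pv_sg _) (by decide) (by decide) (by decide))
    (by rw [Ne, hπ.inj _ _ (by decide) (pv_sg _)]; decide) (by rw [Ne, hπ.inj _ _ (by decide) (by decide)]; decide)
    (ca _).symm k1 k2

/-- a locally unitary class with tangent points is locally of dimension six -/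
theorem FP.locU [Finite G] (h : FP D) (hV : LocV D) (hW : LocW D) {d : G} (hd : d ∈ D) (h1 : ¬ LocV (Dq D d))
    (h2 : ¬ NoX (Dq D d)) : ∃ π, H94.U6Loc (Dc D d) π := by
  have k := h.fp_loc hV hW hd
  have hP : Pol (Dq D d) := ⟨k, h1, h.center_LQ hd⟩
  obtain ⟨n, -, ψ, hψ⟩ := hP.exists_qiso (by_contra fun c => h2 (noX_of_noAff (hP.noAff c)))
  obtain ⟨π, hπ⟩ := hψ.exists_UL
  have hU : ∀ e ∈ D, ∃ π, UL n (Dc D e) π := fun e he => by
    obtain ⟨φ, hφ⟩ := h.qiso_loc hd he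
    exact ⟨_, hπ.comp hφ.symm⟩
  have hL : LP D := ⟨h.toT3, fun e he => by
    obtain ⟨φ, hφ⟩ := h.qiso_loc hd he
    exact hφ.pL (k.pL h1)⟩
  obtain ⟨P, p, hX⟩ := k.q3.exists_XC h2
  obtain ⟨w, hw, c⟩ := hX.line (k.pL h1)
  have n5 := (hπ.perp hX.toPlane hw.1 c).1
  obtain ⟨ρ, hρ⟩ := hU d hd
  obtain rfl | rfl | h7 : n = 5 ∨ n = 6 ∨ 7 ≤ n := by omega
  · exact (hL.not_five hU hd).elim
  · exact ⟨ρ, hρ.mem, hρ.surj, hρ.inj, hρ.conj⟩
  · obtain ⟨m, rfl⟩ : ∃ m, n = m + 7 := ⟨n - 7, by omega⟩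
    exact (hL.not_seven hρ.toUC).elim

end H56
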