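import Mathlib
import Cfsg.Agent.Base
import Cfsg.Agent.Lib.Fischer.ULoc
import Cfsg.Agent.Lib.Refl3.Types

/-!
# Fischer's theorem
-/

set_option autoImplicit false

namespace H56

open Cfsg Subgroup H94 H7 H54 Equiv QuadraticMap

universe u

/-- integer square root by Newton iteration -/
noncomputable def isq (x : ℕ) : ℕ :=
  Nat.rec (motive := fun _ => ℕ → ℕ) (fun s => s) (fun _ ih s => force (Nat.div (Nat.add s (Nat.div x s)) 2) ih) 40 x

/-- no strongly regular graph with these parameters -/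
noncomputable def ok24 (N a b m : ℕ) : Bool :=
  bor (Nat.blt 0 (Nat.mod N m))
    (force (Nat.sub (Nat.add (Nat.mul m m) a) (Nat.mul b m)) fun x => force (isq x) fun s =>
      band (Nat.blt (Nat.mul s s) x) (band (Nat.blt x (Nat.mul (Nat.succ s) (Nat.succ s)))
        (bor (Nat.blt m 31671) (Nat.blt 31673 m))))

theorem ok24_spec {N a b m : ℕ} (h : ok24 N a b m = true) (hm : m ∣ N) :
    (¬ ∃ s, s * s = m * m + a - b * m) ∧ (m < 31671 ∨ 31673 < m) := by
  simp only [ok24, bor_eq_true, band_eq_true, force_eq, Nat.blt_eq] at h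
  rcases h with k | ⟨k1, k2, k3⟩
  · exact absurd (Nat.mod_eq_zero_of_dvd hm) k.ne'
  · exact ⟨Nat.not_exists_sq k1 k2, k3⟩

theorem ok24_all : allLt (fun i => allLt (fun j => force (Nat.add (Nat.mul 609 i) j)
    (ok24 84488431104 1004279985 63346)) 609) 504 = true := by
  decide +kernel

theorem allLt_two {f : ℕ → Bool} {a b : ℕ} (h : allLt (fun i => allLt (fun j => force (Nat.add (Nat.mul a i) j) f) a) b = true)
    {m : ℕ} (hm : m < a * b) : f m = true := by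
  have ha : 0 < a := Nat.pos_of_mul_pos_right (by omega : 0 < a * b)
  have k := (allLt_iff _ _).1 ((allLt_iff _ _).1 h (m / a) (Nat.div_lt_of_lt_mul hm)) (m % a) (Nat.mod_lt _ ha)
  rwa [force_eq, show Nat.add (Nat.mul a (m / a)) (m % a) = m from Nat.div_add_mod m a] at k

theorem no_srg {v m : ℕ} (h1 : 306936 * (306936 - 31671 - 1) = (v - 306936 - 1) * m) (h2 : m < 306936)
    (h3 : 2 * ((306936 : ℕ) : ℤ) + (v - 1) * ((31671 : ℕ) - m) ≠ 0 →
      IsSquare ((((31671 : ℕ) : ℤ) - m) ^ 2 + 4 * ((306936 : ℕ) - m))) : False := by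
  obtain ⟨k1, k3⟩ := ok24_spec (allLt_two ok24_all (m := m) (by omega)) ⟨v - 306936 - 1, by rw [mul_comm, ← h1]⟩
  have v0 : 306937 < v := by
    by_contra c
    rw [show v - 306936 - 1 = 0 by omega] at h1
    norm_num at h1
  obtain ⟨r, hr⟩ := h3 (by push_cast; rcases k3 with c | c <;> nlinarith)
  refine k1 ⟨r.natAbs, ?_⟩
  have e : ((m * m + 1004279985 - 63346 * m : ℕ) : ℤ) = r * r := by
    rw [Nat.cast_sub (by nlinarith [sq_nonneg ((m : ℤ) - 31673)]), ← hr]; push_cast; ring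
  rw [← Int.natAbs_mul, ← e, Int.natAbs_natCast]

variable {G : Type*} [Group G] {D : Set G}

theorem QIso.ncard {G' : Type*} [Group G'] {E : Set G'} {φ : G → G'} (h : QIso D E φ) : E.ncard = D.ncard := by
  rw [← h.bij.image_eq, h.bij.injOn.ncard_image]

namespace FP

variable [Finite G] (h : FP D) (hZ : center G = ⊥) {d : G} (hd : d ∈ D)
include h hZ hd

theorem type22 {π : V6 → G} (hπ : U6Loc (Dc D d) π) : IsOfTypeM22 G D := by
  obtain ⟨b, hb, hab⟩ := h.exists_not_commute hd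
  obtain ⟨ρ, s⟩ := exists_std22 h (locU6_of_one h.toTC hd hπ) hZ hd hb hab
  obtain ⟨M, -⟩ := s.exists_model
  exact M.isOfType

theorem type23 (h1 : FP (Dq D d)) (h2 : IsPrimitiveUnderConj (Dq D d)) (h3 : IsOfTypeM22 (LQ D d) (Dq D d)) :
    IsOfTypeM23 G D := by
  have hT := h1.isGroup
  obtain ⟨M⟩ := model22_of_type hT h2 h3
  have hq := h.qiso hd
  have hl1 := (locU6_of_type hT h2 h3).2
  have hl := h.loc2 hd (hq.symm.locU6 hl1)
  obtain ⟨j, hj, hzj⟩ := h.exists_not_commute hd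
  obtain ⟨a, ha, hja⟩ := h.exists_common hd hj hzj
  obtain ⟨π, hπ⟩ := (hl.loc d hd).loc a ha
  have s3 : Sing (vec 3) := (singC_iff _).1 (by decide +kernel)
  have s5 : Sing (vec 5) := (singC_iff _).1 (by decide +kernel)
  obtain ⟨y, hy, hjy⟩ := h.exists_common₂ ha hd (hπ.mem _ s3) (hπ.mem _ s5) (by
      rw [hπ.commute_iff ((hl.loc d hd).inv' a) s3 s5, hf_vec_eq_zero]; decide +kernel) ha.1 (Dc_symm hd ha)
    ⟨hj, ne_of_not_commute hzj ha.2.2, hja.symm⟩ hzj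
  obtain ⟨L, -, c1, c2⟩ := hl.exists_sigma hd hj hzj hq h1 h3.1 ha hja (Dc_comm D ▸ hy) hjy
  obtain ⟨M', -⟩ := Std23.exists_model (L := L) ⟨h, hl, hZ, hd, hj, hzj, c1, c2, M.card⟩
  exact M'.isOfType

theorem type24 (hp : IsPrimitiveUnderConj D) (h1 : FP (Dq D d)) (h2 : IsPrimitiveUnderConj (Dq D d))
    (h3 : IsOfTypeM23 (LQ D d) (Dq D d)) : IsOfTypeM24 G D := by
  have hT := h1.isGroup
  obtain ⟨M⟩ := model23_of_type hT h2 h3
  obtain ⟨hs, -, hl2⟩ := simple_of_typeM23 hT h2 h3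
  have hq := (h.qiso hd).symm
  have hloc : ∀ e ∈ D, Loc2 (Dc D e) := by
    intro e he
    obtain ⟨g, rfl⟩ := h.trans d hd e he
    exact (h.qiso_Dc_conj g d).loc2 (hq.loc2 hl2)
  obtain ⟨k, hk, c1, c2, c3⟩ := exists_k (M.lab.map hq) hloc h.q3 hd
  obtain ⟨M', -⟩ := Std24.exists_model ⟨h, hloc, hZ, hd, hk, c1, c2, c3, M.card⟩
  exact M'.isOfType hp

omit hZ in
theorem not_loc24 (h1 : FP (Dq D d)) (h2 : IsPrimitiveUnderConj (Dq D d)) : ¬ IsOfTypeM24 (LQ D d) (Dq D d) := by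
  intro h3
  obtain ⟨l, hl, -, -, k, L, s⟩ := exists_std24 h1.isGroup h2 h3
  have hq := h.qiso hd
  obtain ⟨a, ha, rfl⟩ := hq.surj hl
  obtain ⟨c, hc, hdc⟩ := h.exists_not_commute hd
  have e1 : (Dc D d).ncard = 306936 := by rw [← hq.ncard, s.ncard]
  have e2 : (Dc D d ∩ Dc D a).ncard = 31671 := by
    rw [← L.ncard, (hq.dc ha).ncard]
    congr 1
    exact Set.ext fun y => ⟨fun c => ⟨c.1, c.2.2⟩, fun c => ⟨c.1, c.1.1, c.2⟩⟩
  obtain ⟨k1, k2⟩ := srg_params h hd ha hc hdc e1 e2 rfl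
  have : (Dc D d ∩ Dc D c).ncard < 306936 := by
    rw [← e1]
    refine Set.ncard_lt_ncard ⟨Set.inter_subset_left, fun k => hdc ?_⟩
    rw [h.eq_of_Dc_subset hd hc fun y hy => (k hy).2]
  exact no_srg k1 this (k2 this)

end FP

theorem typeM_aux (n : ℕ) : ∀ (G : Type u) [Group G] [Finite G] (D : Set G), D.ncard ≤ n → FP D →
    IsPrimitiveUnderConj D → center G = ⊥ → LocV D → LocW D → ¬ NoX D →
      IsOfTypeM22 G D ∨ IsOfTypeM23 G D ∨ IsOfTypeM24 G D := by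
  induction n with
  | zero =>
    intro G _ _ D hn h
    exact absurd ((Set.ncard_pos).2 h.ne) (by omega)
  | succ n ih =>
    intro G _ _ D hn h hp hZ hV hW hX
    obtain ⟨d, hd⟩ := h.ne
    have h1 := h.fp_loc hV hW hd
    have h2 := h.primitive_loc hV hW hd
    have h3 := h.lemX hV hW hX hd
    by_cases hV' : LocV (Dq D d)
    swap
    · obtain ⟨π, hπ⟩ := h.locU hV hW hd hV' h3
      exact Or.inl (h.type22 hZ hd hπ)
    rcases h1.locW_or with hW' | ⟨φ, hφ⟩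
    swap
    · exact absurd (noX_of_noAff (perm5_noAff_noClaw hφ).1) h3
    have : (Dq D d).ncard < D.ncard := by
      rw [(h.qiso hd).ncard]
      exact Set.ncard_lt_ncard ⟨Dc_subset D d, fun k => (k hd).2.1 rfl⟩
    rcases ih _ _ (by omega) h1 h2 (h.center_LQ hd) hV' hW' h3 with k | k | k
    exacts [Or.inr (Or.inl (h.type23 hZ hd h1 h2 k)), Or.inr (Or.inr (h.type24 hZ hd hp h1 h2 k)),
      absurd k (h.not_loc24 hd h1 h2)]

/-- the primitive classes with trivial local relations -/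
theorem FP.classify [Finite G] (h : FP D) (hp : IsPrimitiveUnderConj D) (hZ : center G = ⊥) (hV : LocV D)
    (hW : LocW D) :
    (∃ n, 7 ≤ n ∧ ∃ e : G ≃* Perm (Fin n), e '' D = {σ | σ.IsSwap}) ∨
    ((∃ m, 3 ≤ m ∧ ∃ e : G ≃* isometryGroup (ZMod 2) (quadFormPlus m (ZMod 2)), e '' D = TOp m) ∨
      (∃ m, 2 ≤ m ∧ ∃ e : G ≃* isometryGroup (ZMod 2) (quadFormMinus m (ZMod 2) 1 1), e '' D = TOm m)) ∨
    (∃ n : ℕ, 5 ≤ n ∧ ∃ Q : QuadraticForm (ZMod 3) (Fin n → ZMod 3), (polarBilin Q).Nondegenerate ∧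
      ∃ e : G ≃* reflectionSubgroup (⇑Q) 1 ⧸ center (reflectionSubgroup (⇑Q) 1),
        e '' D = (QuotientGroup.mk : reflectionSubgroup (⇑Q) 1 → _) ''
          {g : reflectionSubgroup (⇑Q) 1 | (g : isometryGroup (ZMod 3) (⇑Q)) ∈ reflectionsOfNorm (⇑Q) 1}) ∨
    (IsOfTypeM22 G D ∨ IsOfTypeM23 G D ∨ IsOfTypeM24 G D) := by
  by_cases hn : NoAff D
  · exact (h.typeS hZ hn hV hW).imp_right Or.inl
  by_cases hX : NoX D
  · exact Or.inr (Or.inr (Or.inl (h.typeO hZ hX hn)))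
  · exact Or.inr (Or.inr (Or.inr (typeM_aux _ G D le_rfl h hp hZ hV hW hX)))

theorem FP.locV_of [Finite G] (h : FP D) {d : G} (hd : d ∈ D) (h2 : pCore 2 (closure (Dc D d)) ≤ center _) :
    LocV D := by
  have key : ∀ u ∈ Dc D d, ∀ v ∈ Dc D d, (∀ y ∈ Dc D d, Commute u y ↔ Commute v y) → u = v := fun u hu v hv k => by
    obtain ⟨w, hw, haw⟩ := h.exists_Dc_nc hd hv
    rw [H94.pCore_two_le_center_iff (h.tc_Dc hd).isClass ⟨⟨v, subset_closure hv⟩, hv, ⟨w, subset_closure hw⟩, hw,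
      fun e => haw (by rw [Subtype.mk.injEq] at e; exact e ▸ Commute.refl v)⟩ (d := ⟨v, subset_closure hv⟩) hv] at h2
    exact congrArg Subtype.val (h2 ⟨u, subset_closure hu⟩ hu fun y hy => by
      simpa [commute_iff_eq, Subtype.ext_iff] using (k y hy).symm)
  intro e he u hu v hv k
  obtain ⟨g, rfl⟩ := h.trans e he d hd
  have q := h.qiso_Dc_conj g e
  refine conj_inj (key _ (q.mem hu) _ (q.mem hv) fun y hy => ?_)
  obtain ⟨y, hy', rfl⟩ := q.surj hy
  simp only [commute_conj_iff, k y hy']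

theorem FP.locW_of [Finite G] (h : FP D) {d : G} (hd : d ∈ D) (h3 : pCore 3 (closure (Dc D d)) ≤ center _) :
    LocW D := by
  have key : ∀ u ∈ Dc D d, ∀ v ∈ Dc D d, Dc (Dc D d) u = Dc (Dc D d) v → u = v := fun u hu v hv k => by
    rw [H94.pCore_three_le_center_iff (h.tc_Dc hd).isClass (d := ⟨v, subset_closure hv⟩) hv] at h3
    refine congrArg Subtype.val (h3 ⟨u, subset_closure hu⟩ hu (H94.wrel_iff_set_eq.2 (Set.ext fun y => ?_)))
    simpa [commute_iff_eq, Subtype.ext_iff, mem_Dc] using Set.ext_iff.1 k.symm y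
  intro e he u hu v hv k
  obtain ⟨g, rfl⟩ := h.trans e he d hd
  have q := h.qiso_Dc_conj g e
  refine conj_inj (key _ (q.mem hu) _ (q.mem hv) ?_)
  rw [← (q.dc hu).bij.image_eq, ← (q.dc hv).bij.image_eq, k]

end H56
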