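import Mathlib
import Cfsg.Agent.Base
import Cfsg.Agent.Lib.Root.OT1
import Cfsg.Agent.Lib.Root.Disc3

/-!
# Involutions whose products have order `1`, `2` or `p`
-/

set_option autoImplicit false

namespace H56

open Subgroup H89

variable {G : Type*} [Group G] {D : Set G} {p : ℕ}

/-- `p`-transpositions of the subgroup they generate -/
structure PTr (p : ℕ) (D : Set G) : Prop where
  ne : (1 : G) ∉ D
  sq : ∀ d ∈ D, d * d = 1
  conj : ∀ a ∈ D, ∀ b ∈ D, b * a * b ∈ D
  pow : ∀ a ∈ D, ∀ b ∈ D, Commute a b ∨ (a * b) ^ p = 1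

theorem ncard_setOf {α : Type*} [Fintype α] (P : α → Prop) [DecidablePred P] :
    {x | P x}.ncard = (Finset.univ.filter P).card := by
  rw [← Set.ncard_coe_finset]; simp

open Finset in
/-- if products inside a class fix one point only, the classes are points -/
theorem dsc_count [Finite G] {Ω : Type*} [MulAction G Ω] [Nontrivial Ω] {π : G → Ω} (h : Dsc D π) (hp : p.Prime)
    (hw : ∀ a ∈ D, ∀ b ∈ D, π a ≠ π b → (a * b) ^ p = 1)
    (hn : ∀ a ∈ D, ∀ b ∈ D, a ≠ b → π a = π b → ∀ ω, ω ≠ π a → a • ω ≠ b • ω)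
    {a b : G} (ha : a ∈ D) (hb : b ∈ D) (e : π a = π b) : a = b := by
  classical
  by_contra ne
  have := h.finite
  have := Fintype.ofFinite Ω
  have := Fintype.ofFinite G
  have : Fact p.Prime := ⟨hp⟩
  have a2 := h.sq ha
  obtain ⟨k, hk⟩ : ∃ k, ∀ ω, (At D π ω).ncard = k + 2 := by
    obtain ⟨k, hk⟩ := Nat.exists_eq_add_of_le' ((Set.one_lt_ncard (s := At D π (π a))).2 ⟨a, ⟨ha, rfl⟩, b, ⟨hb, e.symm⟩, ne⟩)
    exact ⟨k, fun ω => (h.ncard_at _ _).trans hk⟩
  have hM : ∀ ω, ω ≠ π a → {y | (y ∈ D ∧ π y ≠ π a) ∧ y • ω = a • ω}.ncard = k + 1 := fun ω hω => by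
    obtain ⟨c, hc, rfl⟩ := h.surj ω
    have hm : a • π c ≠ π c := fun e => hω (h.eq_of_fix ha e).symm
    have e1 : At D π (a • π c) = (fun x => x * c * x) '' insert a {y | (y ∈ D ∧ π y ≠ π a) ∧ y • π c = a • π c} := by
      ext x
      constructor
      · intro hx
        obtain ⟨μ, hμ, m1, -⟩ := h.mid hc hx.1 (h.od c hc x hx.1 (hx.2 ▸ hm.symm))
        have m2 : μ • π c = a • π c := by rw [← h.pc' hc (h.sq hμ), m1, hx.2]
        exact ⟨μ, (eq_or_ne μ a).imp_right fun n => ⟨⟨hμ, fun l => hn a ha μ hμ n.symm l.symm _ hω m2.symm⟩, m2⟩, m1⟩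
      · rintro ⟨x, rfl | hx, rfl⟩
        exacts [⟨h.conj' hc a2, h.pc' hc a2⟩, ⟨h.conj' hc (h.sq hx.1.1), by rw [h.pc' hc (h.sq hx.1.1), hx.2]⟩]
    have k1 : ∀ x ∈ insert a {y | (y ∈ D ∧ π y ≠ π a) ∧ y • π c = a • π c}, x ∈ D ∧ x • π c = a • π c := by
      rintro x (rfl | hx); exacts [⟨ha, rfl⟩, ⟨hx.1.1, hx.2⟩]
    have := hk (a • π c)
    rw [e1, Set.InjOn.ncard_image fun x hx x' hx' l => h.uniq (k1 x hx).1 (k1 x' hx').1 hc
      (fun l => hm (by rw [← (k1 x hx).2, ← l, h.fix_self (k1 x hx).1])) l,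
      Set.ncard_insert_of_notMem fun l => l.1.2 rfl] at this
    omega
  have hP : ∀ y ∈ D, π y ≠ π a → IsPGroup p (zpowers (a * y)) := fun y hy l => by
    rintro ⟨_, n, rfl⟩
    exact ⟨1, Subtype.ext (by
      show ((a * y) ^ n) ^ p ^ 1 = 1
      rw [pow_one, ← zpow_natCast, ← zpow_mul, mul_comm, zpow_mul, zpow_natCast, hw a ha y hy l.symm, one_zpow])⟩
  have h1 : p ∣ k + 2 := by
    obtain ⟨ω, hω⟩ := exists_ne (π a)
    obtain ⟨y, ⟨hy, l⟩, m⟩ := Set.nonempty_of_ncard_ne_zero ((hM ω hω).trans_ne k.succ_ne_zero)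
    by_contra c
    obtain ⟨s, hs, f⟩ := exists_fix_of_not_dvd (hP y hy l) (fun g s => g * s * g⁻¹) conj_one' conj_mul'
      (conj_mem_of_zpowers (S := At D π ω) fun s hs => ⟨h.conj s hs.1 _, by
        rw [h.pc s hs.1, hs.2, (mul_fix_iff a2).2 m.symm]⟩) (by rwa [hk])
    refine l (congrArg π (h.uniq ha hy hs.1 (hs.2 ▸ hω.symm) ?_).symm)
    have := f _ (mem_zpowers _)
    rw [mul_inv_rev, iv a2, iv (h.sq hy)] at this
    conv_lhs => rw [← this]
    simp only [mul_assoc, ll a2, a2, mul_one]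
  have hF : ∀ y ∈ D, π y ≠ π a → Fintype.card Ω ≡ #{ω ∈ univ.erase (π a) | y • ω = a • ω} [MOD p] := fun y hy l => by
    have := ncard_modEq_fix (hP y hy l) (fun g (ω : Ω) => g • ω) (one_smul G) mul_smul (S := Set.univ) (Set.toFinite _)
      (fun _ _ _ _ => trivial)
    rw [Set.ncard_univ, Nat.card_eq_fintype_card, ncard_setOf] at this
    convert this using 2
    ext ω
    simp only [mem_filter, mem_erase, mem_univ, and_true, true_and, Set.mem_univ]
    refine ⟨fun m => zpowers_le (H := MulAction.stabilizer G ω).2 ((mul_fix_iff a2).2 m.2.symm), fun m => ?_⟩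
    have m' := (mul_fix_iff a2).1 (m _ (mem_zpowers _))
    exact ⟨fun c => l (h.eq_of_fix hy (by rw [← c, ← m', c, h.fix_self ha])), m'.symm⟩
  have hS := sum_card_bipartiteAbove_eq_sum_card_bipartiteBelow (s := univ.erase (π a))
    (t := univ.filter fun y => y ∈ D ∧ π y ≠ π a) fun ω y => y • ω = a • ω
  rw [sum_const_nat (m := k + 1) fun ω hω => by
    rw [← hM ω (ne_of_mem_erase hω), ncard_setOf, bipartiteAbove, filter_filter]] at hS
  have hT := card_eq_sum_card_fiberwise (f := π) (s := univ.filter fun y => y ∈ D ∧ π y ≠ π a) (t := univ.erase (π a))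
    fun y hy => by simpa using (mem_filter.1 hy).2.2
  rw [sum_const_nat (m := k + 2) fun ω hω => by
    rw [← hk ω, At, ncard_setOf, filter_filter]
    exact congrArg _ (filter_congr fun y _ => ⟨fun l => ⟨l.1.1, l.2⟩, fun l => ⟨⟨l.1, l.2 ▸ ne_of_mem_erase hω⟩, l.2⟩⟩)] at hT
  rw [card_erase_of_mem (mem_univ _), card_univ] at hS hT
  obtain ⟨n, hn'⟩ := Nat.exists_eq_add_of_le' (Fintype.one_lt_card (α := Ω))
  rw [hn', show n + 2 - 1 = n + 1 from rfl] at hS hT
  rw [hn'] at hF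
  by_cases c : p ∣ n + 2
  · have := dvd_sum (s := univ.filter fun y => y ∈ D ∧ π y ≠ π a) fun y hy =>
      ((hF y (mem_filter.1 hy).2.1 (mem_filter.1 hy).2.2).dvd_iff dvd_rfl).1 c
    rcases (Nat.Prime.dvd_mul hp).1 (hS ▸ this) with l | l
    exacts [hp.one_lt.ne' (Nat.dvd_one.1 ((Nat.dvd_add_right l).1 c)), hp.one_lt.ne' (Nat.dvd_one.1 ((Nat.dvd_add_right l).1 h1))]
  · have := card_nsmul_le_sum (univ.filter fun y => y ∈ D ∧ π y ≠ π a)
      (fun y => #{ω ∈ univ.erase (π a) | y • ω = a • ω}) 1 fun y hy => Nat.pos_of_ne_zero fun l =>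
      c (((hF y (mem_filter.1 hy).2.1 (mem_filter.1 hy).2.2).dvd_iff dvd_rfl).2 (l ▸ dvd_zero p))
    rw [hT, smul_eq_mul, mul_one] at this
    have := this.trans hS.ge
    nlinarith

namespace PTr

theorem ot (h : PTr p D) (hp : Odd p) : OT D :=
  ⟨⟨fun d hd => H9.orderOf_eq_two_of_mul_self (fun e => h.ne (e ▸ hd)) (h.sq d hd), h.conj, fun a ha b hb =>
    (h.pow a ha b hb).imp_right fun e => Or.inl (hp.of_dvd_nat (orderOf_dvd_of_pow_eq_one e))⟩, fun a ha b hb n =>
    (h.pow a ha b hb).elim id fun e => by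
      rw [of_not_not fun c => n ⟨c, hp.of_dvd_nat (orderOf_dvd_of_pow_eq_one e)⟩]⟩

theorem mono (h : PTr p D) {C : Set G} (hC : C ⊆ D) (hc : ∀ a ∈ C, ∀ b ∈ C, b * a * b ∈ C) : PTr p C :=
  ⟨fun k => h.ne (hC k), fun d hd => h.sq d (hC hd), hc, fun a ha b hb => h.pow a (hC ha) b (hC hb)⟩

theorem comap (h : PTr p D) (H : Subgroup G) : PTr p (H.subtype ⁻¹' D) :=
  ⟨h.ne, fun d hd => Subtype.ext (h.sq d hd), fun a ha b hb => h.conj a ha b hb, fun a ha b hb =>
    (h.pow a ha b hb).imp Subtype.ext Subtype.ext⟩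

theorem map (h : PTr p D) {H : Type*} [Group H] (φ : G →* H) : PTr p (φ '' D \ {1}) := by
  refine ⟨fun k => k.2 rfl, ?_, ?_, ?_⟩
  · rintro _ ⟨⟨d, hd, rfl⟩, -⟩
    rw [← map_mul, h.sq d hd, map_one]
  · rintro _ ⟨⟨a, ha, rfl⟩, n⟩ _ ⟨⟨b, hb, rfl⟩, -⟩
    refine ⟨⟨_, h.conj a ha b hb, by simp⟩, fun e => n ?_⟩
    have b2 : φ b * φ b = 1 := by rw [← map_mul, h.sq b hb, map_one]
    have : φ a = φ b * (φ b * φ a * φ b) * φ b := by simp only [mul_assoc, ll b2, b2, mul_one]
    rwa [show φ b * φ a * φ b = 1 from e, mul_one, b2] at this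
  · rintro _ ⟨⟨a, ha, rfl⟩, -⟩ _ ⟨⟨b, hb, rfl⟩, -⟩
    exact (h.pow a ha b hb).imp (·.map φ) fun e => by rw [← map_mul, ← map_pow, e, map_one]

/-- no product of two members is a member -/
theorem no_line [Finite G] (h : PTr p D) (hp : p.Prime) (ho : Odd p) {a b d : G} (ha : a ∈ D) (hb : b ∈ D)
    (hab : a * b ∈ D) (hd : d ∈ D) (n : ¬ Commute a d) (hg : closure {a, b, d} = ⊤) : False := by
  classical
  have o := h.ot ho
  have hD : closure D = ⊤ := top_le_iff.1 (hg.ge.trans (closure_mono (by rintro _ (rfl | rfl | rfl) <;> assumption)))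
  have oa := o.od_of ha hd n
  have sub := o.ri.cl_sub hD.ge ha
  have m := fun {y z} hy hyD hz => o.ri.mem_cl_of_od (H := ⊤) (d := a) (y := y) (z := z) trivial hy hyD hz trivial
  have ka := self_mem_cl ⊤ a
  have kd := m ka ha hd oa
  have kb := m kd hd hb (o.ee_od ha (o.line_mem_ee ha hb hab) hd oa).symm
  have kab := m kd hd hab (o.ee_od ha (o.line_mem_ee' ha hb hab) hd oa).symm
  have cj : ∀ x ∈ Cl ⊤ a, ∀ g : G, g * x * g⁻¹ ∈ Cl ⊤ a := fun x hx g => cl_conj hx trivial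
  generalize hC : Cl ⊤ a = C at *
  have h' : PTr p C := h.mono sub fun x hx y hy => by simpa only [iv (h.sq y (sub hy))] using cj x hx y
  have o' := h'.ot ho
  have hl : ∀ x ∈ C, ∃ y ∈ C, x * y ∈ C := by
    rw [← hC]; rintro _ ⟨g, -, rfl⟩
    exact hC ▸ ⟨_, cj b kb g, by simpa [mul_assoc] using cj _ kab g⟩
  have gC : closure C = ⊤ := top_le_iff.1 (hg.ge.trans (closure_mono (by rintro _ (rfl | rfl | rfl) <;> assumption)))
  have tr : TR C := SYS.tr_of_gen ⟨o', hl, by
      rw [← hC]; rintro _ ⟨g, -, rfl⟩ _ ⟨k, -, rfl⟩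
      exact ⟨k * g⁻¹, hC ▸ gC ▸ trivial, by group⟩⟩ ka kd oa (le_top.trans (hg.ge.trans (closure_mono (by
    rintro _ (rfl | rfl | rfl)
    exacts [Or.inl (self_mem_ee ka), Or.inl (o'.line_mem_ee ka kb kab), Or.inr rfl]))))
  let s : Setoid C := ⟨fun x y => Commute x.1 y.1, ⟨fun _ => rfl, fun k => k.symm, fun k l => tr _ (Subtype.prop _) _
    (Subtype.prop _) _ (Subtype.prop _) k l⟩⟩
  let : MulAction G (Quotient s) :=
    { smul := fun g => Quotient.map (fun x => ⟨g * x * g⁻¹, cj x x.2 g⟩) fun _ _ k => k.conj g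
      one_smul := fun x => Quotient.inductionOn x fun _ => congrArg (Quotient.mk s) (Subtype.ext (conj_one' _))
      mul_smul := fun g k x => Quotient.inductionOn x fun _ =>
        congrArg (Quotient.mk s) (Subtype.ext (conj_mul' _ _ _)) }
  have fx : ∀ x (hx : x ∈ C) (ω : Quotient s), x • ω = ω ↔ ω = Quotient.mk s ⟨x, hx⟩ := fun x hx ω =>
    Quotient.inductionOn ω fun y => by
      refine Iff.trans (b := Commute (x * y * x⁻¹) y) (Quotient.eq (r := s))
        (Iff.trans (b := Commute y.1 x) ⟨fun c => ?_, fun c => ?_⟩ (Quotient.eq (r := s) (x := y) (y := ⟨x, hx⟩)).symm)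
      · refine o'.comm _ y.2 _ hx fun l => o'.not_comm y.2 hx l (mem_centralizer_singleton_iff.1
          (l.mem_closure (H := centralizer {y.1}) (mem_centralizer_singleton_iff.2 rfl)
          (mem_centralizer_singleton_iff.2 ?_))).symm
        simpa only [iv (h'.sq x hx)] using c.eq
      · rw [← c.eq, mul_inv_cancel_right]
  have : Nontrivial (Quotient s) := ⟨Quotient.mk s ⟨a, ka⟩, Quotient.mk s ⟨d, kd⟩, fun e => n (Quotient.exact e)⟩
  let ψ := (MulAction.toPermHom G (Quotient s)).rangeRestrict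
  have n1 : ∀ x ∈ C, ψ x ∈ ψ '' C \ {1} := fun x hx => ⟨⟨x, hx, rfl⟩, fun e => by
    obtain ⟨ω, hω⟩ := exists_ne (Quotient.mk s ⟨x, hx⟩)
    exact hω ((fx x hx ω).1 (congrArg (fun g => g • ω) (e : ψ x = 1)))⟩
  let π : (MulAction.toPermHom G (Quotient s)).range → Quotient s := fun g => Classical.epsilon fun ω => g • ω = ω
  have hπ : ∀ x (hx : x ∈ C), π (ψ x) = Quotient.mk s ⟨x, hx⟩ := fun x hx =>
    (fx x hx _).1 (Classical.epsilon_spec (p := fun ω => ψ x • ω = ω) ⟨_, (fx x hx _).2 rfl⟩)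
  have q := h'.map ψ
  have key : ∀ x ∈ ψ '' C \ {1}, ∀ y ∈ ψ '' C \ {1}, π x = π y ↔ Commute x y := by
    rintro _ ⟨⟨x, hx, rfl⟩, -⟩ _ ⟨⟨y, hy, rfl⟩, -⟩
    rw [hπ x hx, hπ y hy]
    refine ⟨fun e => Commute.map (Quotient.exact e) ψ, fun c => (fx y hy _).1 ((fx x hx _).1 ?_)⟩
    exact (congrArg (fun g => g • Quotient.mk s ⟨x, hx⟩) c.eq).trans (congrArg (y • ·) ((fx x hx _).2 rfl))
  have ds : Dsc (ψ '' C \ {1}) π := by
    refine ⟨(q.ot ho).ri, ?_, ?_, fun x hx y hy l => (q.ot ho).od_of hx hy fun c => l ((key x hx y hy).2 c),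
      fun ω => Quotient.inductionOn ω fun x => ⟨_, n1 x x.2, hπ x x.2⟩⟩ <;> rintro _ ⟨⟨x, hx, rfl⟩, -⟩ g <;>
      obtain ⟨g, rfl⟩ := MonoidHom.rangeRestrict_surjective _ g
    · simpa using n1 _ (cj x hx g)
    · exact (by simpa using hπ _ (cj x hx g) : _ = Quotient.mk s ⟨_, cj x hx g⟩).trans (by rw [hπ x hx]; rfl)
  have := dsc_count ds hp (fun x hx y hy l => (q.pow x hx y hy).resolve_left fun c => l ((key x hx y hy).2 c))
    (fun x hx y hy l e ω hω c => ds.pt_not_fix (by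
      rintro _ ⟨⟨x, hx, rfl⟩, -⟩
      obtain ⟨y, hy, k⟩ := hl x hx
      exact ⟨_, n1 y hy, map_mul ψ x y ▸ n1 _ k⟩) (fun g k => Subtype.ext (Equiv.ext k))
      (ds.pt_of hx hy ((key x hx y hy).1 e) l) hω ((mul_fix_iff (q.sq x hx)).2 c)) (n1 a ka) (n1 b kb)
    ((key _ (n1 a ka) _ (n1 b kb)).2 (Commute.map (o.ri.comm_of_mul_mem ha hb hab) ψ))
  exact (n1 _ kab).2 (by rw [map_mul, this]; exact q.sq _ (n1 b kb))

/-- the four-group acting on a common odd partner -/
theorem comm_conj [Finite G] (h : PTr p D) (hp : p.Prime) (ho : Odd p) {a b d : G} (ha : a ∈ D) (hb : b ∈ D)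
    (hd : d ∈ D) (ne : a ≠ b) (c : Commute a b) (na : ¬ Commute a d) (nb : ¬ Commute b d) :
    Commute d (a * b * d * (a * b)) := by
  have o := h.ot ho
  have t2 := sq_eq_one_of_comm (h.sq a ha) (h.sq b hb) c
  have m : a * b * d * (a * b) ∈ D := by
    simpa only [iv t2] using o.ri.conj_closure hd (mul_mem (subset_closure ha) (subset_closure hb))
  by_contra n
  obtain ⟨μ, hμ, j, k1, k2⟩ := o.ri.mid_inv hd t2 m (o.od_of hd m n)
  have m1 := o.comm_of_cent ha hb hμ c ne k1.symm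
  have m2 := o.comm_of_cent' ha hb hμ c ne k1.symm
  let K := closure ({a, b, d} : Set G)
  have ka : a ∈ K := subset_closure (by simp)
  have kb : b ∈ K := subset_closure (by simp)
  have kd : d ∈ K := subset_closure (by simp)
  have kμ : μ ∈ K := mid_mem kd (mul_mem (mul_mem (mul_mem ka kb) kd) (mul_mem ka kb)) j
  let s : K := ⟨μ * (a * b), mul_mem kμ (mul_mem ka kb)⟩
  have s2 : s * s = 1 := Subtype.ext (sq_eq_one_of_comm (h.sq μ hμ) t2 k1.symm)
  have hs : ∀ g : K, Commute g s := fun g => Subtype.ext (comm_closure (by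
    rintro _ (rfl | rfl | rfl)
    exacts [m1.symm.mul_right ((Commute.refl _).mul_right c), m2.symm.mul_right (c.symm.mul_right (Commute.refl _)), k2]) g.2)
  have : (zpowers s).Normal := ⟨by
    rintro _ ⟨n, rfl⟩ g
    rw [((hs g).zpow_right n).eq, mul_inv_cancel_right]; exact ⟨n, rfl⟩⟩
  let φ := QuotientGroup.mk' (zpowers s)
  have ker : ∀ g : K, φ g = 1 → g * g = 1 ∧ Commute g.1 d := fun g e => by
    obtain ⟨n, rfl⟩ := (QuotientGroup.eq_one_iff g).1 e
    exact ⟨by rw [← (Commute.refl s).mul_zpow, s2, one_zpow], congrArg Subtype.val ((hs ⟨d, kd⟩).zpow_right n).symm.eq⟩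
  have q := (h.comap K).map φ
  have mem : ∀ x ∈ D, ∀ hx : x ∈ K, ¬ Commute x d → φ ⟨x, hx⟩ ∈ φ '' (K.subtype ⁻¹' D) \ {1} := fun x h1 hx l =>
    ⟨⟨_, h1, rfl⟩, fun e => l (ker _ e).2⟩
  have nd : ¬ Commute (φ ⟨a, ka⟩) (φ ⟨d, kd⟩) := fun l => by
    have e := (ker (⟨a, ka⟩ * ⟨d, kd⟩ * (⟨a, ka⟩ * ⟨d, kd⟩)) (by
      simpa only [map_mul] using sq_eq_one_of_comm (q.sq _ (mem a ha ka na)) (by
        rw [← map_mul, (h.comap K).sq ⟨d, kd⟩ hd, map_one]) l)).1
    exact not_od_of_four (h.sq d hd) ((pow_four _).trans (congrArg Subtype.val e)) (o.od_of ha hd na)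
  refine q.no_line hp ho (mem a ha ka na) (mem b hb kb nb) ?_ ⟨⟨⟨d, kd⟩, hd, rfl⟩, fun e => nd (by
    rw [show φ ⟨d, kd⟩ = 1 from e]; exact Commute.one_right _)⟩ nd ?_
  · have e : φ ⟨μ, kμ⟩ = φ ⟨a, ka⟩ * φ ⟨b, kb⟩ := by
      rw [← map_mul]
      exact QuotientGroup.eq.2 ⟨1, Subtype.ext (by simp [s, iv (h.sq μ hμ)])⟩
    exact e ▸ mem μ hμ kμ fun l => na (o.comm_of_cent ha hb hd c ne (by
      simpa only [ll (h.sq μ hμ)] using l.symm.mul_right k2)).symm
  · rw [eq_top_iff, ← map_top_of_surjective _ (QuotientGroup.mk'_surjective _), ← closure_closure_coe_preimage,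
      MonoidHom.map_closure]
    refine closure_mono ?_
    rintro _ ⟨x, e | e | e, rfl⟩
    exacts [Or.inl (congrArg φ (Subtype.ext e)), Or.inr (Or.inl (congrArg φ (Subtype.ext e))),
      Or.inr (Or.inr (congrArg φ (Subtype.ext e)))]

/-- away from `3`, commuting members with a common odd partner have the same commuting members -/
theorem trans [Finite G] (h : PTr p D) (hp : p.Prime) (ho : Odd p) (h3 : p ≠ 3) {a b c d : G} (ha : a ∈ D)
    (hb : b ∈ D) (hc : c ∈ D) (hd : d ∈ D) (k : Commute a b) (na : ¬ Commute a d) (nb : ¬ Commute b d)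
    (l : Commute c b) : Commute c a := by
  by_contra n
  have ne : a ≠ b := fun e => n (e ▸ l)
  have o := h.ot ho
  have a2 := h.sq a ha
  have b2 := h.sq b hb
  have d2 := h.sq d hd
  have t2 := sq_eq_one_of_comm a2 b2 k
  have at' : Commute a (a * b) := (Commute.refl a).mul_right k
  have bt : Commute b (a * b) := k.symm.mul_right (Commute.refl b)
  have ct := fun {y} hy => o.comm_of_cent (y := y) ha hb hy k ne
  have e0 := (h.comm_conj hp ho ha hb hd ne k na nb).eq
  have eb : b = a * (a * b) := (ll a2 b).symm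
  generalize a * b = t at t2 at' bt ct e0 eb
  obtain ⟨u, hu⟩ : ∃ u, u = d * t * d := ⟨_, rfl⟩
  have u2 : u * u = 1 := by simp only [hu, mul_assoc, ll d2, ll t2, d2]
  have tu : Commute t u := by simpa only [hu, commute_iff_eq, mul_assoc] using e0.symm
  have uD : u ∈ closure D := hu ▸ mul_mem (mul_mem (subset_closure hd)
    (by rw [← ll a2 t, ← eb]; exact mul_mem (subset_closure ha) (subset_closure hb))) (subset_closure hd)
  have h2 : u * a * u ∈ D := by simpa only [iv u2] using o.ri.conj_closure ha uD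
  have h3' : u * b * u ∈ D := by simpa only [iv u2] using o.ri.conj_closure hb uD
  have e3 : u * b * u = u * a * u * t := by simp only [eb, mul_assoc, tu.eq]
  have k' : Commute (u * a * u) (u * b * u) := by simpa only [iv u2] using k.conj u
  have k2 : Commute a (u * a * u) := o.comm_of_cent h2 h3' ha k' (by simpa using ne) (by
    rwa [e3, ll (h.sq _ h2)])
  have n1 : a ≠ u * a * u := fun e => na (mem_centralizer_singleton_iff.1 ((o.od_of ha hd na).mem_closure
    (H := centralizer {a}) (mem_centralizer_singleton_iff.2 rfl) (mem_centralizer_singleton_iff.2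
      (ct (h.conj a ha d hd) (by
        simpa only [hu, commute_iff_eq, mul_assoc, ll d2, ll t2, d2, t2, mul_one] using
          congrArg (fun x => d * x * d * t) e))))).symm
  have n2 : u * a * u ≠ b := fun e => by
    have r1 : t * (a * d) = a * d * u := by simp only [hu, mul_assoc, ll d2, cl at'.eq]
    have r2 : u * (a * d) = a * d * (t * u) := by
      have := congrArg (fun x => x * d * t) (e.trans eb)
      simp only [hu, mul_assoc, ll d2, t2, mul_one] at this e0 ⊢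
      rw [this, ← e0, ll d2]
    obtain ⟨m, hm⟩ := exists_pow_eq_self_of_coprime (x := a * d) (((Nat.coprime_primes Nat.prime_three hp).2
      h3.symm).coprime_dvd_right (orderOf_dvd_of_pow_eq_one ((h.pow a ha d hd).resolve_left na)))
    have r3 : Commute t (a * d) := hm ▸ Commute.pow_right (by
      generalize a * d = w at r1 r2
      rw [commute_iff_eq, pow_three, ← mul_assoc, r1, mul_assoc, ← mul_assoc u, r2]
      simp only [mul_assoc]
      rw [r2, ← mul_assoc t, r1, mul_assoc, ← mul_assoc u, ← tu.eq, mul_assoc, u2, mul_one]) m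
    exact na (ct hd (by simpa only [ll a2] using (at'.symm.mul_right r3).symm)).symm
  have ta : Commute t (u * a * u) := (tu.mul_right at'.symm).mul_right tu
  have ba : Commute b (u * a * u) := eb ▸ k2.mul_left ta
  rw [e3] at h3'
  clear e3 k'
  generalize u * a * u = x at *
  have x2 := h.sq x h2
  have n3 : ¬ Commute x c := fun m => n (o.comm_of_cent ha h3' hc (k2.mul_right at')
    (fun e => n2 (by rw [eb]; conv_rhs => rw [e, mul_assoc, t2, mul_one])) (by
      rw [← ta.eq, ← mul_assoc, ← eb]; exact l.mul_right m.symm))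
  have r := (h.comm_conj hp ho ha h2 hc n1 k2 (fun m => n m.symm) n3).eq
  have s2 := sq_eq_one_of_comm a2 x2 k2
  have e4 : x * t = b * (a * x) := by rw [← mul_assoc, ← k.eq, eb, ll a2, ta.eq]
  have bs : Commute b (a * x) := k.symm.mul_right ba
  refine n (o.comm_of_cent ha h2 hc k2 n1 ?_)
  rw [e4] at h3'
  generalize a * x = s at *
  simpa only [ll b2] using l.mul_right (o.comm c hc _ h3' (not_od_of_four (h.sq _ h3') (by
    have := congrArg (fun y => c * s * y * (c * s)) r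
    simpa only [pow_four, mul_assoc, cl l.eq, cl bs.eq.symm, ll b2, ll s2, ll (h.sq c hc), s2, b2, mul_one,
      h.sq c hc] using this)))

end PTr

end H56
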